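import Cfsg.Agent.FpfFour.Action

/-! Two-element generated action of the symmetric group of degree three, fixed-point-free. -/

set_option autoImplicit false
open scoped commutatorElement

namespace Cfsg.Agent.FpfSymThree

open Cfsg.Agent.FpfFour (fixed_of_diff IsMinInv exists_minInv fixK)

variable {H V : Type*} [Group H] [AddCommGroup V] [DistribMulAction H V]

theorem comm_of_pow_hom {G : Type*} [Group G] [Finite G] (hcop : (Nat.card G).Coprime 6)
    (h : ∀ x y : G, ((x * y) ^ 2)⁻¹ = (x ^ 2)⁻¹ * (y ^ 2)⁻¹) (a b : G) : a * b = b * a := by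
  have h2 : ∀ x y : G, (x * y) ^ 2 = y ^ 2 * x ^ 2 := fun x y => by
    have := congrArg (·⁻¹) (h x y); simpa [mul_inv_rev] using this
  have h3 : ∀ x y : G, (x * y) ^ 3 = x ^ 3 * y ^ 3 := fun x y =>
    calc (x * y) ^ 3 = x * (y * x) ^ 2 * y := by simp only [pow_succ, pow_zero, one_mul, mul_assoc]
      _ = x * (x ^ 2 * y ^ 2) * y := by rw [h2 y x]
      _ = x ^ 3 * y ^ 3 := by simp only [pow_succ, pow_zero, one_mul, mul_assoc]
  have hsq : ∀ x y : G, Commute (x ^ 2) (y ^ 3) := fun x y => by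
    have e1 : (x * (y * x) * x⁻¹) ^ 3 = x * (y * x) ^ 3 * x⁻¹ := conj_pow ..
    rw [show x * (y * x) * x⁻¹ = x * y by group, h3, h3] at e1
    have e2 : x ^ 2 * y ^ 3 = y ^ 3 * x ^ 2 := by
      apply mul_left_cancel (a := x)
      calc x * (x ^ 2 * y ^ 3) = x ^ 3 * y ^ 3 := by rw [← mul_assoc, ← pow_succ']
        _ = x * (y ^ 3 * x ^ 3) * x⁻¹ := e1
        _ = x * (y ^ 3 * x ^ 2) := by group
    exact e2
  have hc2 : (Nat.card G).Coprime 2 := hcop.coprime_dvd_right (by norm_num)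
  have hc3 : (Nat.card G).Coprime 3 := hcop.coprime_dvd_right (by norm_num)
  obtain ⟨x, hx⟩ : ∃ x, x ^ 2 = a := ⟨(powCoprime hc2).symm a, (powCoprime hc2).apply_symm_apply a⟩
  obtain ⟨y, hy⟩ : ∃ y, y ^ 3 = b := ⟨(powCoprime hc3).symm b, (powCoprime hc3).apply_symm_apply b⟩
  rw [← hx, ← hy]
  exact hsq x y

theorem exists_pow_eq {g : H} {k : ℕ} (h : (orderOf g).Coprime k) : ∃ m : ℕ, (g ^ k) ^ m = g :=
  exists_pow_eq_self_of_coprime h.symm

theorem fixed_of_pow {g : H} {k : ℕ} (h : (orderOf g).Coprime k) {v : V} (hv : g ^ k • v = v) :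
    g • v = v := by
  obtain ⟨m, hm⟩ := exists_pow_eq h
  rw [← hm]
  clear hm
  induction m with
  | zero => simp
  | succ n ih => rw [pow_succ, mul_smul, hv, ih]

/-- The hypotheses: compatible actions of the symmetric group of degree three without common fixed
points. -/
structure Hyp (σ τ : MulAut H) (s t : V ≃+ V) : Prop where
  copH : (Nat.card H).Coprime 6
  copV : (Nat.card V).Coprime 6
  heqs : ∀ h v, s (h • v) = σ h • s v
  heqt : ∀ h v, t (h • v) = τ h • t v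
  σ3 : ∀ h, σ (σ (σ h)) = h
  s3 : ∀ v, s (s (s v)) = v
  τ2 : ∀ h, τ (τ h) = h
  t2 : ∀ v, t (t v) = v
  τσ : ∀ h, τ (σ h) = σ (σ (τ h))
  ts : ∀ v, t (s v) = s (s (t v))
  fixH : ∀ h, σ h = h → τ h = h → h = 1
  fixV : ∀ v, s v = v → t v = v → v = 0

variable {σ τ : MulAut H} {s t : V ≃+ V}

theorem Hyp.cop_order (H0 : Hyp σ τ s t) [Finite H] (g : H) {k : ℕ} (hk : k ∣ 6) :
    (orderOf g).Coprime k :=
  (H0.copH.coprime_dvd_left (orderOf_dvd_natCard g)).coprime_dvd_right hk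

theorem Hyp.inv_of_fixed [Finite H] (H0 : Hyp σ τ s t) {a : H} (ha : σ a = a) : τ a = a⁻¹ := by
  let A : Subgroup H :=
    { carrier := {g | σ g = g}
      one_mem' := by simp
      mul_mem' := fun {a b} ha hb => show σ (a * b) = a * b by rw [map_mul, ha, hb]
      inv_mem' := fun {a} ha => show σ a⁻¹ = a⁻¹ by rw [map_inv, ha] }
  have hA : ∀ g ∈ A, τ g ∈ A := fun g hg => by
    show σ (τ g) = τ g
    have e := H0.τσ g
    rw [show σ g = g from hg] at e
    have e' := congrArg σ e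
    rwa [H0.σ3] at e'
  let ψ : A →* A :=
    { toFun := fun a => ⟨τ a, hA _ a.2⟩
      map_one' := by ext; simp
      map_mul' := fun a b => by ext; simp }
  have hψ : MonoidHom.FixedPointFree ψ := fun x hx =>
    Subtype.ext (H0.fixH x x.2 (congrArg Subtype.val hx))
  exact congrArg Subtype.val
    (congrFun (hψ.coe_eq_inv_of_involutive fun x => Subtype.ext (H0.τ2 _)) ⟨a, ha⟩)

theorem Hyp.neg_of_fixed (H0 : Hyp σ τ s t) {v : V} (hv : s v = v) : t v = -v := by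
  have e := H0.ts v
  rw [hv] at e
  have e' : s (t v) = t v := by
    have := congrArg s e; rwa [H0.s3] at this
  have := H0.fixV (v + t v) (by rw [map_add, hv, e']) (by rw [map_add, H0.t2, add_comm])
  exact eq_neg_of_add_eq_zero_right this

theorem Hyp.fix_sfixed [Finite H] (H0 : Hyp σ τ s t) {a : H} (ha : σ a = a) {v : V} (hv : s v = v) :
    a • v = v := by
  have hav : s (a • v) = a • v := by rw [H0.heqs, ha, hv]
  have h1 := H0.neg_of_fixed hav
  rw [H0.heqt, H0.inv_of_fixed ha, H0.neg_of_fixed hv, smul_neg, neg_inj, inv_smul_eq_iff] at h1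
  refine fixed_of_pow (k := 2) (H0.cop_order a (by norm_num)) ?_
  rw [pow_two, mul_smul, ← h1]

theorem Hyp.sum_zero (H0 : Hyp σ τ s t) (hs0 : ∀ v, s v = v → v = 0) (v : V) :
    v + s v + s (s v) = 0 :=
  hs0 _ (by rw [map_add, map_add, H0.s3]; abel)

theorem Hyp.ss_eq (H0 : Hyp σ τ s t) (hs0 : ∀ v, s v = v → v = 0) (v : V) : s (s v) = -v - s v := by
  rw [← sub_eq_zero, ← H0.sum_zero hs0 v]; abel

theorem Hyp.fixed_of_comm [Finite H] [Finite V] (H0 : Hyp σ τ s t) [FaithfulSMul H V]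
    (hs0 : ∀ v, s v = v → v = 0) (y : H) (hcom : Commute y (σ y))
    (hcop : (orderOf ((σ (σ y))⁻¹ * y)).Coprime (Nat.card V))
    (hcom2 : Commute y (σ (σ y))) : σ y = y := by
  have hrel : ∀ (z : H) (v : V), z • v - σ (σ z) • v + (σ z • s v - σ (σ z) • s v) = 0 := by
    intro z v
    have h1 := H0.sum_zero hs0 (z • v)
    rw [H0.heqs, H0.heqs, H0.ss_eq hs0 v, smul_sub, smul_neg] at h1
    rw [← h1]; abel
  set c := (σ (σ y))⁻¹ * y with hc
  have hcy : ∀ v : V, c • (c • v - v) = c • v - v := by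
    intro v
    -- eliminate the `s v` terms with `w = σ² y`
    have key : (y * σ (σ y)) • v - (σ (σ y) * σ (σ y)) • v
        - ((y * y) • v - (y * σ (σ y)) • v) = 0 := by
      have e1 := hrel y (σ (σ y) • v)
      rw [H0.heqs, H0.σ3] at e1
      have e2 := congrArg (y • ·) (hrel y v)
      simp only [smul_add, smul_sub, smul_zero, ← mul_smul] at e1 e2
      rw [hcom.eq, hcom2.eq] at e2
      have e3 : (y * σ (σ y)) • v - (σ (σ y) * σ (σ y)) • v +
          ((σ y * y) • s v - (σ (σ y) * y) • s v) -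
          ((y * y) • v - (σ (σ y) * y) • v + ((σ y * y) • s v - (σ (σ y) * y) • s v)) = 0 := by
        rw [e1, e2, sub_zero]
      rw [hcom2.eq] at e3 ⊢
      rw [← e3]; abel
    have h2 : c • (c • v - v) - (c • v - v) =
        ((σ (σ y))⁻¹ * (σ (σ y))⁻¹) • (-((y * σ (σ y)) • v - (σ (σ y) * σ (σ y)) • v
        - ((y * y) • v - (y * σ (σ y)) • v))) := by
      simp only [smul_sub, smul_neg, ← mul_smul, hc]
      have a1 : (σ (σ y))⁻¹ * (σ (σ y))⁻¹ * (y * y) = (σ (σ y))⁻¹ * y * ((σ (σ y))⁻¹ * y) := by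
        have := hcom2.inv_right.eq
        simp only [mul_assoc]
        rw [← mul_assoc y _ y, this, mul_assoc]
      have a2 : (σ (σ y))⁻¹ * (σ (σ y))⁻¹ * (y * σ (σ y)) = (σ (σ y))⁻¹ * y := by
        rw [hcom2.eq]; group
      have a3 : (σ (σ y))⁻¹ * (σ (σ y))⁻¹ * (σ (σ y) * σ (σ y)) = 1 := by group
      rw [a1, a2, a3, one_smul]; abel
    rw [key, neg_zero, smul_zero, sub_eq_zero] at h2
    exact h2
  have hc1 : c = 1 := eq_of_smul_eq_smul (α := V) fun v => by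
    rw [one_smul]; exact fixed_of_diff c v hcop (hcy v)
  have h2 : σ (σ y) = y := by rw [hc, inv_mul_eq_one] at hc1; exact hc1
  have := congrArg σ h2
  rw [H0.σ3] at this
  exact this.symm

/-- Two vectors: an element `y` of norm one whose commutator with `σ y` is central. -/
theorem Hyp.commute_of_norm_one [Finite H] [Finite V] [FaithfulSMul H V] (H0 : Hyp σ τ s t)
    (hs0 : ∀ v, s v = v → v = 0) (y u : H) (hnorm : y * σ y * σ (σ y) = 1)
    (hu : y * σ y = u * σ y * y) (hy : Commute u y) (hsy : Commute u (σ y))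
    (hcop : (orderOf u).Coprime (Nat.card V)) : u = 1 := by
  have hB : ∀ (h : H) (w : V), σ h • w - σ (σ h) • w = h • s w - σ h • s w := by
    intro h w
    have h1 := congrArg (fun x => σ (σ x)) (rfl : h = h)
    have e := H0.sum_zero hs0 (σ (σ h) • w)
    rw [H0.heqs, H0.heqs, H0.σ3, H0.ss_eq hs0 w, smul_sub, smul_neg] at e
    rw [← sub_eq_zero, ← neg_eq_zero, ← e]; abel
  obtain ⟨z, hz⟩ : ∃ z, z = σ y := ⟨_, rfl⟩
  obtain ⟨w₂, hw₂⟩ : ∃ w, w = σ (σ y) := ⟨_, rfl⟩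
  have hI : ∀ v : V, (y * y) • v - ((y * z) • v + (z * y) • v) +
      (((z * w₂) • v + (w₂ * z) • v) - (w₂ * w₂) • v) = 0 := by
    intro v
    have hs : s (σ y • v - σ (σ y) • v) = y • v - σ y • v := by
      rw [map_sub, H0.heqs, H0.heqs, hB (σ y) (s v), hB y, H0.s3]
    have e : σ y • (σ y • v - σ (σ y) • v) - σ (σ y) • (σ y • v - σ (σ y) • v) =
        y • (y • v - σ y • v) - σ y • (y • v - σ y • v) := by
      rw [hB y, hs]
    simp only [smul_sub, ← mul_smul, ← hw₂] at e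
    simp only [← hz] at e
    rw [← sub_eq_zero] at e
    rw [← neg_eq_zero, ← e]; abel
  have hw : w₂ = z⁻¹ * y⁻¹ := by
    rw [hw₂, hz, ← mul_inv_rev]
    exact eq_inv_of_mul_eq_one_right hnorm
  rw [← hz] at hu hsy
  have cyz : y * z = u * (z * y) := by rw [hu, mul_assoc]
  have czy : z⁻¹ * y = u * (y * z⁻¹) :=
    calc z⁻¹ * y = z⁻¹ * (y * z) * z⁻¹ := by group
      _ = (z⁻¹ * u) * (z * y) * z⁻¹ := by rw [cyz]; group
      _ = u * (y * z⁻¹) := by rw [← hsy.inv_right.eq]; group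
  have cyw : y * w₂ = u⁻¹ * (w₂ * y) :=
    calc y * w₂ = (y * z⁻¹) * y⁻¹ := by rw [hw, mul_assoc]
      _ = u⁻¹ * (z⁻¹ * y) * y⁻¹ := by rw [czy]; group
      _ = u⁻¹ * (w₂ * y) := by rw [hw]; group
  have c1 : z * w₂ = y⁻¹ := by rw [hw, mul_inv_cancel_left]
  have cyiz : z⁻¹ * y⁻¹ = y⁻¹ * (z⁻¹ * u⁻¹) := by
    have := congrArg (·⁻¹) cyz
    simpa [mul_inv_rev, mul_assoc] using this
  have c2 : w₂ * z = u⁻¹ * y⁻¹ := by
    rw [hw, cyiz, hsy.inv_left.inv_right.eq.symm]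
    calc y⁻¹ * (u⁻¹ * z⁻¹) * z = y⁻¹ * u⁻¹ := by group
      _ = u⁻¹ * y⁻¹ := (hy.inv_left.inv_right.eq).symm
  have hc : ∀ (g : H), Commute u g → ∀ (a : V), g • u • a = u • g • a := fun g hg a => by
    rw [← mul_smul, ← mul_smul, hg.eq]
  have hci : ∀ (g : H), Commute u g → ∀ (a : V), g • u⁻¹ • a = u⁻¹ • g • a := fun g hg a => by
    rw [← mul_smul, ← mul_smul, hg.inv_left.eq]
  have E0 : ∀ w : V, y • y • w - (z • y • w + u • z • y • w) + (y⁻¹ • w + u⁻¹ • y⁻¹ • w) -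
      w₂ • w₂ • w = 0 := by
    intro w
    have := hI w
    rw [cyz, c1, c2] at this
    simp only [mul_smul] at this
    rw [← this]; abel
  have eB : ∀ w : V, y • z • w = u • z • y • w := fun w => by
    rw [← mul_smul y z, cyz, mul_smul, mul_smul]
  have eD : ∀ w : V, y • w₂ • w₂ • w = u⁻¹ • u⁻¹ • w₂ • w₂ • y • w := fun w => by
    have e1 : ∀ a : V, y • w₂ • a = u⁻¹ • w₂ • y • a := fun a => by
      rw [← mul_smul y w₂, cyw, mul_smul, mul_smul]
    have hwu : Commute u w₂ := hw ▸ hsy.inv_right.mul_right hy.inv_right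
    rw [e1, e1, hci w₂ hwu]
  have E1 : ∀ w : V, y • y • w - u • (z • y • w + u • z • y • w) + (y⁻¹ • w + u⁻¹ • y⁻¹ • w) -
      u⁻¹ • u⁻¹ • w₂ • w₂ • w = 0 := by
    intro w
    have := congrArg (y • ·) (E0 (y⁻¹ • w))
    simp only [smul_sub, smul_add, smul_zero, hci y hy, hc y hy, eB, eD, smul_inv_smul] at this
    simpa only [smul_add] using this
  have E2 : ∀ w : V, y • y • w - u • u • (z • y • w + u • z • y • w) + (y⁻¹ • w + u⁻¹ • y⁻¹ • w) -
      u⁻¹ • u⁻¹ • u⁻¹ • u⁻¹ • w₂ • w₂ • w = 0 := by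
    intro w
    have := congrArg (y • ·) (E1 (y⁻¹ • w))
    simp only [smul_sub, smul_add, smul_zero, hci y hy, hc y hy, eB, eD, smul_inv_smul] at this
    simpa only [smul_add] using this
  have hou : ∀ k : ℕ, k ∣ 6 → (orderOf u).Coprime k := fun k hk => H0.cop_order u hk
  have hX : ∀ w : V, u • (y • y • w + (y⁻¹ • w + u⁻¹ • y⁻¹ • w)) =
      y • y • w + (y⁻¹ • w + u⁻¹ • y⁻¹ • w) := by
    intro w
    set X := y • y • w + (y⁻¹ • w + u⁻¹ • y⁻¹ • w) with hXdef
    set B := z • y • w + u • z • y • w with hBdef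
    set D := w₂ • w₂ • w with hDdef
    have e0 : X - B - D = 0 := by rw [hXdef, hBdef, hDdef, ← E0 w]; abel
    have e1 : X - u • B - u⁻¹ • u⁻¹ • D = 0 := by rw [hXdef, hBdef, hDdef, ← E1 w]; abel
    have e2 : X - u • u • B - u⁻¹ • u⁻¹ • u⁻¹ • u⁻¹ • D = 0 := by rw [hXdef, hBdef, hDdef, ← E2 w]; abel
    have a1 := congrArg (u • ·) e1
    have a2 := congrArg (fun x => u⁻¹ • u⁻¹ • x) e1
    have a0 := congrArg (u⁻¹ • ·) e0
    simp only [smul_sub, smul_zero, smul_inv_smul, inv_smul_smul] at a1 a2 a0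
    have key : u • (u⁻¹ • u⁻¹ • X - X) - (u⁻¹ • u⁻¹ • X - X) = 0 := by
      rw [smul_sub, smul_inv_smul]
      calc _ = (X - u • u • B - u⁻¹ • u⁻¹ • u⁻¹ • u⁻¹ • D)
            - (u • X - u • u • B - u⁻¹ • D)
            - (u⁻¹ • u⁻¹ • X - u⁻¹ • B - u⁻¹ • u⁻¹ • u⁻¹ • u⁻¹ • D)
            + (u⁻¹ • X - u⁻¹ • B - u⁻¹ • D) := by abel
        _ = 0 := by rw [e2, a1, a2, a0]; abel
    rw [sub_eq_zero] at key
    have hfix : (u⁻¹ * u⁻¹) • ((u⁻¹ * u⁻¹) • X - X) = (u⁻¹ * u⁻¹) • X - X := by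
      have k' := eq_inv_smul_iff.mpr key
      rw [← mul_smul u⁻¹ u⁻¹] at k'
      rw [mul_smul u⁻¹ u⁻¹ ((u⁻¹ * u⁻¹) • X - X), ← k', ← k']
    have := fixed_of_diff (u⁻¹ * u⁻¹) X (hcop.coprime_dvd_left ?_) hfix
    · refine fixed_of_pow (k := 2) (hou 2 (by norm_num)) ?_
      rw [pow_two, ← inv_smul_eq_iff.mp (show (u * u)⁻¹ • X = X by rwa [mul_inv_rev])]
    · rw [← pow_two]; exact (orderOf_pow_dvd 2).trans (orderOf_inv u).dvd
  have czyy : ∀ w : V, z • y • y • w = u⁻¹ • u⁻¹ • y • y • z • w := fun w => by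
    have e1 : ∀ a : V, z • y • a = u⁻¹ • y • z • a := fun a => by
      rw [← mul_smul y z, cyz, mul_smul, mul_smul, inv_smul_smul]
    rw [e1, e1, hci y hy]
  have czyi : ∀ w : V, z • y⁻¹ • w = u • y⁻¹ • z • w := fun w => by
    have e : y⁻¹ * z = z * y⁻¹ * u⁻¹ :=
      calc y⁻¹ * z = z * (z⁻¹ * y⁻¹) * z := by group
        _ = z * (u⁻¹ * y⁻¹) := by rw [← hw, mul_assoc, c2]
        _ = z * y⁻¹ * u⁻¹ := by rw [hy.inv_left.inv_right.eq, mul_assoc]
    rw [← mul_smul, ← mul_smul, ← mul_smul]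
    congr 1
    rw [mul_assoc u, e, ← mul_assoc u (z * y⁻¹), (hsy.mul_right hy.inv_right).eq]
    group
  have huz : ∀ a : V, z • u • a = u • z • a := hc z hsy
  refine eq_of_smul_eq_smul (α := V) fun x => ?_
  rw [one_smul]
  refine fixed_of_pow (k := 3) (hou 3 (by norm_num)) ?_
  -- two relations at `w' = z • w`
  obtain ⟨w, hw'⟩ : ∃ w, y • y • z • w = x := ⟨z⁻¹ • y⁻¹ • y⁻¹ • x, by simp⟩
  have r1 := hX (z • w)
  have r2 := congrArg (z • ·) (hX w)
  simp only [smul_add, smul_inv_smul, huz, hci z hsy, czyy, czyi, inv_smul_smul] at r2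
  simp only [smul_add, smul_inv_smul] at r1
  rw [hw'] at r1 r2
  have r1' := congrArg (u • ·) r1
  simp only [smul_add, smul_inv_smul] at r1'
  have hk : u • (u⁻¹ • u⁻¹ • x - u • x) = u⁻¹ • u⁻¹ • x - u • x := by
    rw [smul_sub, smul_inv_smul, ← sub_eq_zero]
    rw [← sub_eq_zero] at r2 r1'
    have key : ∀ p q E : V, p = 0 → q = 0 → E = p - q → E = 0 := fun p q E hp hq hE => by
      rw [hE, hp, hq, sub_zero]
    refine key _ _ _ r2 r1' ?_
    abel
  have hk2 := congrArg (fun a => u • u • a) hk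
  simp only [smul_sub, smul_inv_smul] at hk2
  have e : u • (u • u • u • x - x) = u • u • u • x - x := by
    rw [← neg_sub x, smul_neg]
    congr 1
    rw [smul_sub]
    exact hk2
  have h3 : u ^ 3 • (u ^ 3 • x - x) = u ^ 3 • x - x := by
    simp only [pow_three, mul_smul]
    rw [e, e, e]
  exact fixed_of_diff (u ^ 3) x (hcop.coprime_dvd_left (orderOf_pow_dvd 3)) h3

end Cfsg.Agent.FpfSymThree
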