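import Cfsg.Agent.FpfSymThree.Main

/-! A solvable group of order prime to six with a fixed-point-free action of the symmetric group of
degree three: the derived subgroup is nilpotent. -/

set_option autoImplicit false
open scoped commutatorElement

universe u

namespace Cfsg.Agent.FpfSymThree

/-- Two automorphisms generating a fixed-point-free action of the symmetric group of degree three. -/
structure Pair {G : Type*} [Group G] (σ τ : MulAut G) : Prop where
  cop : (Nat.card G).Coprime 6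
  σ3 : ∀ g, σ (σ (σ g)) = g
  τ2 : ∀ g, τ (τ g) = g
  τσ : ∀ g, τ (σ g) = σ (σ (τ g))
  fix : ∀ g, σ g = g → τ g = g → g = 1

theorem exists_minIn {G : Type*} [Group G] [Finite G] [Group.IsSolvable G] (σ τ : MulAut G)
    (Z : Subgroup G) (hZn : Z.Normal) (hZ1 : Z ≠ ⊥) (hZσ : ∀ v ∈ Z, σ v ∈ Z)
    (hZτ : ∀ v ∈ Z, τ v ∈ Z) :
    ∃ (N : Subgroup G) (r : ℕ), r.Prime ∧ N ≤ Z ∧ N.Normal ∧ N ≠ ⊥ ∧
      (∀ a ∈ N, ∀ b ∈ N, a * b = b * a) ∧ (∀ v ∈ N, σ v ∈ N) ∧ (∀ v ∈ N, τ v ∈ N) ∧
      (∀ a ∈ N, a ^ r = 1) ∧ r ∣ Nat.card N ∧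
      ∀ K : Subgroup G, K ≤ N → K.Normal → (∀ v ∈ K, σ v ∈ K) → (∀ v ∈ K, τ v ∈ K) → K = ⊥ ∨ K = N := by
  classical
  obtain ⟨N, hN, hmin⟩ := (Set.toFinite {K : Subgroup G | K ≤ Z ∧ K.Normal ∧ K ≠ ⊥ ∧
    (∀ v ∈ K, σ v ∈ K) ∧ ∀ v ∈ K, τ v ∈ K}).exists_minimal ⟨Z, le_rfl, hZn, hZ1, hZσ, hZτ⟩
  obtain ⟨hNZ, hNn, hN1, hNσ, hNτ⟩ := hN
  haveI := hNn
  have hmin' : ∀ K : Subgroup G, K ≤ N → K.Normal → (∀ v ∈ K, σ v ∈ K) → (∀ v ∈ K, τ v ∈ K) →
      K = ⊥ ∨ K = N := by
    intro K hK hKn h1 h2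
    by_cases h : K = ⊥
    · exact Or.inl h
    · exact Or.inr (le_antisymm hK (hmin ⟨hK.trans hNZ, hKn, h, h1, h2⟩ hK))
  have hder : ∀ φ : MulAut G, (∀ v ∈ N, φ v ∈ N) → ∀ v ∈ ⁅N, N⁆, φ v ∈ ⁅N, N⁆ := fun φ hφ v hv => by
    have hle : (⁅N, N⁆).map φ.toMonoidHom ≤ ⁅N, N⁆ := by
      rw [Subgroup.map_commutator]
      exact Subgroup.commutator_mono (Subgroup.map_le_iff_le_comap.mpr hφ)
        (Subgroup.map_le_iff_le_comap.mpr hφ)
    exact hle ⟨v, hv, rfl⟩
  have hlt : ⁅N, N⁆ < N := Group.IsSolvable.commutator_lt_of_ne_bot hN1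
  have hz : ⁅N, N⁆ = ⊥ :=
    (hmin' _ hlt.le inferInstance (hder σ hNσ) (hder τ hNτ)).resolve_right hlt.ne
  have hab : ∀ a ∈ N, ∀ b ∈ N, a * b = b * a := fun a ha b hb =>
    (Subgroup.mem_centralizer_iff.mp (Subgroup.commutator_eq_bot_iff_le_centralizer.mp hz ha) b hb).symm
  obtain ⟨p, hp, hpd⟩ := Nat.exists_prime_and_dvd (mt Subgroup.card_eq_one.mp hN1)
  haveI := Fact.mk hp
  let K : Subgroup G :=
    { carrier := {v | v ∈ N ∧ v ^ p = 1}
      one_mem' := ⟨N.one_mem, one_pow p⟩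
      mul_mem' := fun {a b} ha hb => ⟨N.mul_mem ha.1 hb.1, by
        rw [(show Commute a b from hab a ha.1 b hb.1).mul_pow, ha.2, hb.2, one_mul]⟩
      inv_mem' := fun {a} ha => ⟨N.inv_mem ha.1, by rw [inv_pow, ha.2, inv_one]⟩ }
  have hK : K = N := by
    refine (hmin' K (fun v hv => hv.1) ⟨fun v hv g => ⟨hNn.conj_mem v hv.1 g, by
      rw [conj_pow, hv.2, mul_one, mul_inv_cancel]⟩⟩
      (fun v hv => ⟨hNσ v hv.1, by rw [← map_pow, hv.2, map_one]⟩)
      (fun v hv => ⟨hNτ v hv.1, by rw [← map_pow, hv.2, map_one]⟩)).resolve_left ?_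
    obtain ⟨x, hx⟩ := exists_prime_orderOf_dvd_card' p hpd
    intro hb
    have hxK : (x : G) ∈ K := ⟨x.2, by rw [← Subgroup.coe_pow, ← hx, pow_orderOf_eq_one]; rfl⟩
    rw [hb, Subgroup.mem_bot] at hxK
    rw [orderOf_eq_one_iff.mpr (Subtype.ext hxK)] at hx
    exact hp.ne_one hx.symm
  exact ⟨N, p, hp, hNZ, hNn, hN1, hab, hNσ, hNτ, fun a ha => (hK.ge ha).2, hpd, hmin'⟩

/-- A coset fixed by both automorphisms is trivial. -/
theorem Pair.fixed_coset {G : Type*} [Group G] [Finite G] {σ τ : MulAut G} (P : Pair σ τ)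
    (V : Subgroup G) (hσ : ∀ v ∈ V, σ v ∈ V) (hτ : ∀ v ∈ V, τ v ∈ V) {x : G}
    (h1 : x⁻¹ * σ x ∈ V) (h2 : x⁻¹ * τ x ∈ V) : x ∈ V := by
  classical
  have hmap : ∀ φ : MulAut G, (∀ v ∈ V, φ v ∈ V) → x⁻¹ * φ x ∈ V → ∀ g, x⁻¹ * g ∈ V → x⁻¹ * φ g ∈ V :=
    fun φ hφ hx g hg => by
      have := V.mul_mem hx (hφ _ hg)
      simpa [map_mul, map_inv, mul_assoc] using this
  let π : Equiv.Perm {g : G // x⁻¹ * g ∈ V} :=
    { toFun := fun g => ⟨σ g, hmap σ hσ h1 g g.2⟩
      invFun := fun g => ⟨σ (σ g), hmap σ hσ h1 _ (hmap σ hσ h1 g g.2)⟩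
      left_inv := fun g => Subtype.ext (P.σ3 g)
      right_inv := fun g => Subtype.ext (P.σ3 g) }
  haveI := Fintype.ofFinite G
  have hπ : π ^ 3 ^ 1 = 1 := by
    ext g; exact P.σ3 g
  obtain ⟨y, hyV, hy⟩ : ∃ y, x⁻¹ * y ∈ V ∧ σ y = y := by
    by_contra hne
    push Not at hne
    haveI : Fact (Nat.Prime 3) := ⟨Nat.prime_three⟩
    have hc := Equiv.Perm.card_compl_support_modEq (p := 3) hπ
    have e : π.supportᶜ = ∅ := by
      rw [Finset.eq_empty_iff_forall_notMem]
      intro g hg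
      rw [Finset.mem_compl, Equiv.Perm.mem_support, not_not] at hg
      exact hne g g.2 (congrArg Subtype.val hg)
    rw [e, Finset.card_empty] at hc
    have h3 : 3 ∣ Fintype.card {g : G // x⁻¹ * g ∈ V} := Nat.modEq_zero_iff_dvd.mp hc.symm
    let eqv : {g : G // x⁻¹ * g ∈ V} ≃ V :=
      { toFun := fun g => ⟨_, g.2⟩
        invFun := fun v => ⟨x * v, by simp⟩
        left_inv := fun g => Subtype.ext (by simp)
        right_inv := fun v => Subtype.ext (by simp) }
    rw [← Nat.card_eq_fintype_card, Nat.card_congr eqv] at h3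
    have := Nat.dvd_gcd (h3.trans V.card_subgroup_dvd_card) (show 3 ∣ 6 by norm_num)
    rw [P.cop.gcd_eq_one] at this
    norm_num at this
  have hτy : σ (τ y) = τ y := by
    have e := congrArg σ (P.τσ y)
    rwa [hy, P.σ3] at e
  obtain ⟨w, hw⟩ : ∃ w, w = y⁻¹ * τ y := ⟨_, rfl⟩
  have hwV : w ∈ V := by
    have := V.mul_mem (V.inv_mem hyV) (hmap τ hτ h2 y hyV)
    simpa [hw, mul_assoc] using this
  have hwσ : σ w = w := by rw [hw, map_mul, map_inv, hy, hτy]
  obtain ⟨m, hm⟩ := exists_pow_eq (g := w) (k := 2)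
    ((P.cop.coprime_dvd_left (orderOf_dvd_natCard w)).coprime_dvd_right (by norm_num))
  have hwinv : τ w = w⁻¹ := by rw [hw, map_mul, map_inv, P.τ2, mul_inv_rev, inv_inv]
  have hkk : w * (w ^ m)⁻¹ = w ^ m := by
    rw [mul_inv_eq_iff_eq_mul, ← pow_add]
    conv_lhs => rw [← hm]
    rw [← pow_mul, two_mul]
  have hone : y * w ^ m = 1 := by
    refine P.fix _ (by rw [map_mul, map_pow, hy, hwσ]) ?_
    rw [map_mul, map_pow, hwinv, show τ y = y * w by rw [hw, mul_inv_cancel_left], inv_pow,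
      mul_assoc, hkk]
  have := V.mul_mem hyV (V.pow_mem hwV m)
  rw [mul_assoc, hone, mul_one] at this
  simpa using V.inv_mem this

theorem map_eq_of_le {G : Type*} [Group G] [Finite G] (φ : MulAut G) (V : Subgroup G)
    (h : ∀ v ∈ V, φ v ∈ V) : V.map φ.toMonoidHom = V :=
  Subgroup.eq_of_le_of_card_ge (Subgroup.map_le_iff_le_comap.mpr h)
    (Subgroup.card_map_of_injective φ.injective).ge

/-- The induced pair on a quotient by an invariant normal subgroup. -/
theorem Pair.quot {G : Type*} [Group G] [Finite G] {σ τ : MulAut G} (P : Pair σ τ)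
    (V : Subgroup G) [V.Normal] (hσ : ∀ v ∈ V, σ v ∈ V) (hτ : ∀ v ∈ V, τ v ∈ V) :
    Pair (QuotientGroup.congr V V σ (map_eq_of_le σ V hσ))
      (QuotientGroup.congr V V τ (map_eq_of_le τ V hτ)) := by
  refine ⟨P.cop.coprime_dvd_left V.card_quotient_dvd_card, fun g => ?_, fun g => ?_, fun g => ?_,
    fun g => ?_⟩ <;> induction g using QuotientGroup.induction_on with | _ g => ?_
  · exact congrArg (QuotientGroup.mk (s := V)) (P.σ3 g)
  · exact congrArg (QuotientGroup.mk (s := V)) (P.τ2 g)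
  · exact congrArg (QuotientGroup.mk (s := V)) (P.τσ g)
  · intro h1 h2
    have h1' : ((σ g : G) : G ⧸ V) = g := h1
    have h2' : ((τ g : G) : G ⧸ V) = g := h2
    rw [eq_comm, QuotientGroup.eq] at h1' h2'
    exact (QuotientGroup.eq_one_iff g).mpr (P.fixed_coset V hσ hτ h1' h2')

/-- The derived subgroup centralizes a minimal invariant normal subgroup. -/
theorem Pair.commutator_le_centralizer {G : Type*} [Group G] [Finite G] [Group.IsSolvable G]
    {σ τ : MulAut G} (P : Pair σ τ) (V : Subgroup G) [V.Normal]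
    (hQ : Group.IsNilpotent (commutator (G ⧸ V))) {p : ℕ} (hp : p.Prime) (hV1 : V ≠ ⊥)
    (hVc : ∀ a ∈ V, ∀ b ∈ V, a * b = b * a) (hVp : ∀ a ∈ V, a ^ p = 1)
    (hVσ : ∀ v ∈ V, σ v ∈ V) (hVτ : ∀ v ∈ V, τ v ∈ V)
    (hmin : ∀ K : Subgroup G, K ≤ V → K.Normal → (∀ v ∈ K, σ v ∈ K) → (∀ v ∈ K, τ v ∈ K) →
      K = ⊥ ∨ K = V) :
    commutator G ≤ Subgroup.centralizer (V : Set G) := by
  classical
  haveI := Fact.mk hp
  letI : CommGroup V :=
    { (inferInstance : Group V) with mul_comm := fun a b => Subtype.ext (hVc a a.2 b b.2) }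
  set C : Subgroup G := (MulAut.conjNormal : G →* MulAut V).ker with hC
  have hCmem : ∀ g, g ∈ C ↔ ∀ v ∈ V, g * v * g⁻¹ = v := by
    intro g
    rw [hC, MonoidHom.mem_ker]
    refine ⟨fun h v hv => ?_, fun h => MulEquiv.ext fun v => Subtype.ext ?_⟩
    · have := congrArg (fun e : MulAut V => (e ⟨v, hv⟩ : G)) h
      simpa using this
    · simpa using h v v.2
  have hCinv : ∀ φ : MulAut G, (∀ v ∈ V, φ v ∈ V) → ∀ g ∈ C, φ g ∈ C := by
    intro φ hφ g hg
    rw [hCmem]
    intro v hv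
    obtain ⟨w, hw, rfl⟩ : v ∈ V.map φ.toMonoidHom := (map_eq_of_le φ V hφ).symm ▸ hv
    have := congrArg φ ((hCmem g).mp hg w hw)
    simpa using this
  have hCσ := hCinv σ hVσ
  have hCτ := hCinv τ hVτ
  let φ : G →* MulAut V := MulAut.conjNormal
  let σq : MulAut (G ⧸ C) := QuotientGroup.congr C C σ (map_eq_of_le σ C hCσ)
  let τq : MulAut (G ⧸ C) := QuotientGroup.congr C C τ (map_eq_of_le τ C hCτ)
  have hσq : ∀ g : G, σq (g : G ⧸ C) = ((σ g : G) : G ⧸ C) := fun g => rfl
  have hτq : ∀ g : G, τq (g : G ⧸ C) = ((τ g : G) : G ⧸ C) := fun g => rfl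
  have Pq : Pair σq τq := P.quot C hCσ hCτ
  letI : DistribMulAction (G ⧸ C) (Additive V) :=
    { smul := fun q v => Additive.ofMul (QuotientGroup.kerLift φ q v.toMul)
      one_smul := fun v => by
        show Additive.ofMul (QuotientGroup.kerLift φ 1 v.toMul) = v
        rw [map_one]; rfl
      mul_smul := fun a b v => by
        show Additive.ofMul (QuotientGroup.kerLift φ (a * b) v.toMul) = _
        rw [map_mul]; rfl
      smul_zero := fun q => congrArg Additive.ofMul (map_one (QuotientGroup.kerLift φ q))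
      smul_add := fun q v w => congrArg Additive.ofMul (map_mul (QuotientGroup.kerLift φ q) _ _) }
  have hsmul : ∀ (g : G) (v : Additive V), ((((g : G ⧸ C) • v).toMul : V) : G) = g * (v.toMul : G) * g⁻¹ :=
    fun g v => rfl
  haveI : FaithfulSMul (G ⧸ C) (Additive V) := ⟨fun {a b} h => QuotientGroup.kerLift_injective φ
    (MulEquiv.ext fun v => Additive.ofMul.injective (h (Additive.ofMul v)))⟩
  let eσ : V ≃* V :=
    { toFun := fun v => ⟨σ v, hVσ v v.2⟩
      invFun := fun v => ⟨σ (σ v), hVσ _ (hVσ v v.2)⟩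
      left_inv := fun v => Subtype.ext (P.σ3 v)
      right_inv := fun v => Subtype.ext (P.σ3 v)
      map_mul' := fun a b => Subtype.ext (map_mul σ _ _) }
  let eτ : V ≃* V :=
    { toFun := fun v => ⟨τ v, hVτ v v.2⟩
      invFun := fun v => ⟨τ v, hVτ v v.2⟩
      left_inv := fun v => Subtype.ext (P.τ2 v)
      right_inv := fun v => Subtype.ext (P.τ2 v)
      map_mul' := fun a b => Subtype.ext (map_mul τ _ _) }
  let s : Additive V ≃+ Additive V := MulEquiv.toAdditive eσ
  let t : Additive V ≃+ Additive V := MulEquiv.toAdditive eτ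
  have hext : ∀ a b : Additive V, (a.toMul : G) = (b.toMul : G) → a = b := fun a b h =>
    Additive.toMul.injective (Subtype.ext h)
  have hs : ∀ v : Additive V, ((s v).toMul : G) = σ (v.toMul : G) := fun v => rfl
  have ht : ∀ v : Additive V, ((t v).toMul : G) = τ (v.toMul : G) := fun v => rfl
  have H0 : Hyp σq τq s t := by
    refine ⟨Pq.cop, ?_, ?_, ?_, Pq.σ3, fun v => hext _ _ (P.σ3 _), Pq.τ2, fun v => hext _ _ (P.τ2 _),
      Pq.τσ, fun v => hext _ _ (P.τσ _), Pq.fix, ?_⟩
    · rw [Nat.card_congr Additive.toMul]; exact P.cop.coprime_dvd_left V.card_subgroup_dvd_card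
    · intro h v
      induction h using QuotientGroup.induction_on with
      | _ g => exact hext _ _ (by rw [hs, hσq, hsmul, hsmul, hs, map_mul, map_mul, map_inv])
    · intro h v
      induction h using QuotientGroup.induction_on with
      | _ g => exact hext _ _ (by rw [ht, hτq, hsmul, hsmul, ht, map_mul, map_mul, map_inv])
    · intro v h1 h2
      exact hext _ _ (P.fix _ (congrArg (fun x : Additive V => (x.toMul : G)) h1)
        (congrArg (fun x : Additive V => (x.toMul : G)) h2))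
  have hirr : Irr (G ⧸ C) s t := by
    intro U hUh hUs hUt
    let K : Subgroup G := (AddSubgroup.toSubgroup' U).map V.subtype
    have hKmem : ∀ w : V, (w : G) ∈ K ↔ Additive.ofMul w ∈ U := by
      intro w
      constructor
      · rintro ⟨w', hw', h⟩
        rw [show w' = w from Subtype.ext h] at hw'
        exact hw'
      · intro h; exact ⟨w, h, rfl⟩
    rcases hmin K (Subgroup.map_subtype_le _) ⟨fun v hv g => by
        obtain ⟨w, hw, rfl⟩ := hv
        exact (hKmem (MulAut.conjNormal g w)).mpr (hUh (g : G ⧸ C) _ hw)⟩ (fun v hv => by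
        obtain ⟨w, hw, rfl⟩ := hv
        exact (hKmem ⟨σ w, hVσ w w.2⟩).mpr (hUs _ hw)) (fun v hv => by
        obtain ⟨w, hw, rfl⟩ := hv
        exact (hKmem ⟨τ w, hVτ w w.2⟩).mpr (hUt _ hw)) with h | h
    · left
      rw [AddSubgroup.eq_bot_iff_forall]
      intro x hx
      have := (hKmem x.toMul).mpr hx
      rw [h, Subgroup.mem_bot] at this
      exact hext _ _ this
    · right
      rw [eq_top_iff]
      intro x _
      exact (hKmem x.toMul).mp (h.ge x.toMul.2)
  have hVp' : ∀ v : Additive V, p • v = 0 := fun v => hext _ _ (by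
    rw [toMul_nsmul]; simpa using hVp _ v.toMul.2)
  have hV1' : ∃ v : Additive V, v ≠ 0 := by
    obtain ⟨a, ha⟩ := Subgroup.ne_bot_iff_exists_ne_one.mp hV1
    exact ⟨Additive.ofMul a, fun h => ha (congrArg Additive.toMul h)⟩
  have hVC : V ≤ C := fun v hv => (hCmem v).mpr fun w hw => by
    rw [hVc v hv w hw, mul_inv_cancel_right]
  have hH' : Group.IsNilpotent (commutator (G ⧸ C)) := by
    let π : G ⧸ V →* G ⧸ C := QuotientGroup.map V C (MonoidHom.id G) hVC
    have hπs : Function.Surjective π := by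
      intro q
      induction q using QuotientGroup.induction_on with
      | _ g => exact ⟨(g : G ⧸ V), rfl⟩
    have e : (commutator (G ⧸ V)).map π = commutator (G ⧸ C) := by
      rw [commutator_def, commutator_def, Subgroup.map_commutator,
        Subgroup.map_top_of_surjective π hπs]
    rw [← e]
    haveI := hQ
    exact Group.nilpotent_of_surjective _ (π.subgroupMap_surjective (commutator (G ⧸ V)))
  have hcomm : ∀ a b : G ⧸ C, a * b = b * a := by
    by_cases hH : commutator (G ⧸ C) = ⊥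
    · intro a b
      refine commutatorElement_eq_one_iff_commute.mp ?_
      rw [← Subgroup.mem_bot, ← hH]
      exact Subgroup.commutator_mem_commutator (Subgroup.mem_top a) (Subgroup.mem_top b)
    set D := commutator (G ⧸ C) with hD
    haveI := hH'
    haveI : Nontrivial D := (Subgroup.nontrivial_iff_ne_bot D).mpr hH
    set Z : Subgroup (G ⧸ C) := (Subgroup.center D).map D.subtype with hZ
    have hZ1 : Z ≠ ⊥ := by
      rw [hZ, Ne, Subgroup.map_eq_bot_iff_of_injective _ D.subtype_injective]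
      intro h
      obtain ⟨c, hc⟩ := hH'.nilpotent'
      have hall : ∀ i, Subgroup.upperCentralSeries D i = ⊥ := by
        intro i
        induction i with
        | zero => exact Subgroup.upperCentralSeries_zero ..
        | succ i ihi =>
          refine (Subgroup.eq_bot_iff_forall _).mpr fun x hx => ?_
          rw [Subgroup.mem_upperCentralSeries_succ_iff] at hx
          rw [← Subgroup.mem_bot, ← h, Subgroup.mem_center_iff]
          intro g
          have := hx g
          rw [ihi, Subgroup.mem_bot] at this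
          exact (commutatorElement_eq_one_iff_mul_comm.mp this).symm
      exact bot_ne_top ((hall c).symm.trans hc)
    have hZn : Z.Normal := ConjAct.normal_of_characteristic_of_normal
    have hZmem : ∀ z, z ∈ Z ↔ z ∈ D ∧ ∀ d ∈ D, d * z = z * d := by
      intro z
      constructor
      · rintro ⟨w, hw, rfl⟩
        exact ⟨w.2, fun d hd => congrArg Subtype.val (Subgroup.mem_center_iff.mp hw ⟨d, hd⟩)⟩
      · rintro ⟨hz, h⟩
        exact ⟨⟨z, hz⟩, Subgroup.mem_center_iff.mpr fun d => Subtype.ext (h d d.2), rfl⟩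
    have hDinv : ∀ φ : MulAut (G ⧸ C), D.map φ.toMonoidHom = D := fun φ => by
      rw [hD, commutator_def, Subgroup.map_commutator, Subgroup.map_top_of_surjective _ φ.surjective]
    have hZinv : ∀ φ : MulAut (G ⧸ C), ∀ z ∈ Z, φ z ∈ Z := by
      intro φ z hz
      rw [hZmem] at hz ⊢
      refine ⟨(hDinv φ).le ⟨z, hz.1, rfl⟩, fun d hd => ?_⟩
      obtain ⟨d', hd', rfl⟩ : d ∈ D.map φ.toMonoidHom := (hDinv φ).ge hd
      have := congrArg φ (hz.2 d' hd')
      simpa using this
    obtain ⟨N, r, hr, hNZ, hNn, hN1, hNc, hNσ, hNτ, hNr, hrd, hNmin⟩ :=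
      exists_minIn σq τq Z hZn hZ1 (hZinv σq) (hZinv τq)
    have hNnil : Group.IsNilpotent N := by
      letI : CommGroup N :=
        { (inferInstance : Group N) with mul_comm := fun a b => Subtype.ext (hNc a a.2 b b.2) }
      infer_instance
    have hcop := H0.coprime_of_nilpotent hirr hVp' N hNn hNσ hNτ hNnil
    have hS : Setup N r (Additive V) := by
      refine ⟨hr, hNn, hNc, hNr, (hcop.coprime_dvd_left hrd).symm, fun v hv => ?_⟩
      have : v ∈ FpfSymThree.fixV (V := Additive V) N := hv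
      rwa [H0.fixV_eq_bot hirr hNn hNσ hNτ hN1, AddSubgroup.mem_bot] at this
    refine (⟨H0, hS, hNσ, hNτ⟩ : Ctx σq τq s t N r).comm hirr hVp' hV1' hH' hN1 ?_ hNmin
    intro a b n hn
    exact ((hZmem n).mp (hNZ hn)).2 _
      (Subgroup.commutator_mem_commutator (Subgroup.mem_top a) (Subgroup.mem_top b))
  rw [commutator_def, Subgroup.commutator_le]
  intro a _ b _
  have : ⁅a, b⁆ ∈ C := by
    rw [← QuotientGroup.eq_one_iff, ← QuotientGroup.mk'_apply C, map_commutatorElement]
    exact commutatorElement_eq_one_iff_commute.mpr (hcomm _ _)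
  rw [Subgroup.mem_centralizer_iff]
  intro v hv
  exact (mul_inv_eq_iff_eq_mul.mp ((hCmem _).mp this v hv)).symm

theorem nilpotent_commutator_aux : ∀ (n : ℕ) (G : Type u) [Group G] [Finite G] [Group.IsSolvable G]
    (σ τ : MulAut G), Nat.card G = n → Pair σ τ → Group.IsNilpotent (commutator G) := by
  intro n
  induction n using Nat.strong_induction_on with
  | _ n ih =>
    intro G _ _ _ σ τ hn P
    rcases subsingleton_or_nontrivial G with h | h
    · infer_instance
    obtain ⟨V, p, hp, -, hVn, hV1, hVc, hVσ, hVτ, hVp, -, hmin⟩ :=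
      exists_minIn σ τ ⊤ inferInstance top_ne_bot (fun _ _ => trivial) (fun _ _ => trivial)
    haveI := hVn
    have hlt : Nat.card (G ⧸ V) < n := by
      rw [← hn, Subgroup.card_eq_card_quotient_mul_card_subgroup V]
      exact lt_mul_of_one_lt_right Nat.card_pos ((Subgroup.one_lt_card_iff_ne_bot V).mpr hV1)
    have hQ : Group.IsNilpotent (commutator (G ⧸ V)) :=
      ih _ hlt (G ⧸ V) _ _ rfl (P.quot V hVσ hVτ)
    have hcen := P.commutator_le_centralizer V hQ hp hV1 hVc hVp hVσ hVτ hmin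
    haveI := hQ
    let f : commutator G →* commutator (G ⧸ V) :=
      ((QuotientGroup.mk' V).comp (commutator G).subtype).codRestrict _ fun x => by
        have : (QuotientGroup.mk' V (x : G)) ∈ (commutator G).map (QuotientGroup.mk' V) :=
          ⟨x, x.2, rfl⟩
        have e : (commutator G).map (QuotientGroup.mk' V) ≤ commutator (G ⧸ V) := by
          rw [commutator_def, commutator_def, Subgroup.map_commutator]
          exact Subgroup.commutator_mono le_top le_top
        exact e this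
    refine Subgroup.isNilpotent_of_ker_le_center f ?_
    intro x hx
    have hxV : (x : G) ∈ V := by
      rw [← QuotientGroup.eq_one_iff]; exact congrArg Subtype.val hx
    rw [Subgroup.mem_center_iff]
    intro y
    exact Subtype.ext ((Subgroup.mem_centralizer_iff.mp (hcen y.2) x hxV).symm)

end Cfsg.Agent.FpfSymThree
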