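import Cfsg.Agent.FpfSymThree.Basic

/-! Kernels of an invariant elementary abelian subgroup on its minimal submodules. -/

set_option autoImplicit false
open scoped commutatorElement

namespace Cfsg.Agent.FpfSymThree

open Cfsg.Agent.FpfFour (fixed_of_diff IsMinInv exists_minInv fixK minInv_dichotomy)

variable {H V : Type*} [Group H] [AddCommGroup V] [DistribMulAction H V]

/-- `N` is abelian normal of prime exponent `r`, coprime to `V`, and has no nonzero fixed vector. -/
structure Setup (N : Subgroup H) (r : ℕ) (V : Type*) [AddCommGroup V] [DistribMulAction H V] : Prop where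
  prime : r.Prime
  normal : N.Normal
  comm : ∀ a ∈ N, ∀ b ∈ N, a * b = b * a
  exp : ∀ a ∈ N, a ^ r = 1
  cop : (Nat.card V).Coprime r
  nofix : ∀ v : V, (∀ n ∈ N, n • v = v) → v = 0

/-- `L` is the kernel of `N` on a minimal invariant subgroup. -/
def IsKer (N L : Subgroup H) (V : Type*) [AddCommGroup V] [DistribMulAction H V] : Prop :=
  ∃ S : AddSubgroup V, IsMinInv N S ∧ L = fixK S ⊓ N

/-- The vectors fixed by `L`. -/
def fixV (L : Subgroup H) : AddSubgroup V where
  carrier := {v | ∀ l ∈ L, l • v = v}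
  zero_mem' l _ := smul_zero l
  add_mem' {a b} ha hb l hl := by rw [smul_add, ha l hl, hb l hl]
  neg_mem' {a} ha l hl := by rw [smul_neg, ha l hl]

variable {N : Subgroup H} {r : ℕ}

theorem IsKer.le {L : Subgroup H} (hL : IsKer N L V) : L ≤ N := by
  obtain ⟨S, -, rfl⟩ := hL; exact inf_le_right

theorem Setup.conj_mem (S0 : Setup N r V) (x : H) {n : H} (hn : n ∈ N) : x⁻¹ * n * x ∈ N := by
  simpa using S0.normal.conj_mem n hn x⁻¹

theorem Setup.fixV_inv (S0 : Setup N r V) {L : Subgroup H} (hLN : L ≤ N) :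
    ∀ n ∈ N, ∀ v ∈ fixV (V := V) L, n • v ∈ fixV (V := V) L := fun n hn v hv l hl => by
  rw [← mul_smul, S0.comm l (hLN hl) n hn, mul_smul, hv l hl]

theorem sum_pow_fixed {g : H} {k : ℕ} (hg : g ^ k = 1) (v : V) :
    g • (∑ i ∈ Finset.range k, g ^ i • v) = ∑ i ∈ Finset.range k, g ^ i • v := by
  rw [Finset.smul_sum]
  have h1 := Finset.sum_range_succ' (fun i => g ^ i • v) k
  rw [Finset.sum_range_succ, hg, pow_zero, one_smul] at h1
  simp only [← mul_smul, ← pow_succ']
  exact (add_right_cancel h1).symm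

theorem Setup.nsmul_cancel [Finite V] (S0 : Setup N r V) {v : V} (h : r • v = 0) : v = 0 := by
  have hd : addOrderOf v ∣ 1 := S0.cop ▸ Nat.dvd_gcd (addOrderOf_dvd_natCard v)
    (addOrderOf_dvd_of_nsmul_eq_zero h)
  exact AddMonoid.addOrderOf_eq_one_iff.mp (Nat.dvd_one.mp hd)

/-- Elements outside the kernel act without fixed points on its fixed vectors. -/
theorem Setup.cyclic [Finite V] (S0 : Setup N r V) {L : Subgroup H} (hL : IsKer N L V) {a b : H}
    (ha : a ∈ N) (haL : a ∉ L) (hb : b ∈ N) : ∃ i : ℕ, b * a ^ i ∈ L := by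
  obtain ⟨S, hS, rfl⟩ := hL
  by_contra hcon
  push Not at hcon
  have hzero : ∀ g ∈ N, g ∉ fixK S ⊓ N → ∀ v ∈ S, ∑ i ∈ Finset.range r, g ^ i • v = 0 := by
    intro g hg hgL v hv
    let T : AddSubgroup V := S ⊓
      { carrier := {w | g • w = w}
        zero_mem' := smul_zero g
        add_mem' := fun {x y} hx hy => show g • (x + y) = x + y by rw [smul_add, hx, hy]
        neg_mem' := fun {x} hx => show g • (-x) = -x by rw [smul_neg, hx] }
    rcases minInv_dichotomy hS (g := g) T inf_le_left (fun n hn w hw => ⟨hS.2.1 n hn w hw.1,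
        show g • n • w = n • w by rw [← mul_smul, S0.comm g hg n hn, mul_smul, hw.2]⟩)
        (fun w hw => hw.2) with h | h
    · have : ∑ i ∈ Finset.range r, g ^ i • v ∈ T :=
        ⟨S.sum_mem fun i _ => hS.2.1 _ (N.pow_mem hg i) v hv, sum_pow_fixed (S0.exp g hg) v⟩
      rwa [h, AddSubgroup.mem_bot] at this
    · exact absurd ⟨h, hg⟩ hgL
  apply hS.1
  rw [AddSubgroup.eq_bot_iff_forall]
  intro v hv
  apply S0.nsmul_cancel
  have hpow : ∀ j : ℕ, j ∈ Finset.range r → j ≠ 0 →
      ∑ i ∈ Finset.range r, a ^ (i * j) • b ^ j • v = 0 := by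
    intro j hj hj0
    have hj' : a ^ j ∉ fixK S ⊓ N := fun hmem => by
      have hcj : (orderOf a).Coprime j := by
        refine Nat.Coprime.coprime_dvd_left (orderOf_dvd_of_pow_eq_one (S0.exp a ha)) ?_
        exact S0.prime.coprime_iff_not_dvd.mpr fun hd =>
          absurd (Nat.le_of_dvd (Nat.pos_of_ne_zero hj0) hd) (not_le.mpr (Finset.mem_range.mp hj))
      obtain ⟨m, hm⟩ := exists_pow_eq hcj
      exact haL (hm ▸ Subgroup.pow_mem _ hmem m)
    have := hzero _ (N.pow_mem ha j) hj' _ (hS.2.1 _ (N.pow_mem hb j) v hv)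
    simpa only [← pow_mul, mul_comm j] using this
  have htot : ∑ i ∈ Finset.range r, ∑ j ∈ Finset.range r, (b * a ^ i) ^ j • v = 0 :=
    Finset.sum_eq_zero fun i _ => hzero _ (N.mul_mem hb (N.pow_mem ha i)) (hcon i) v hv
  rw [Finset.sum_comm] at htot
  rw [Finset.sum_eq_single_of_mem 0 (Finset.mem_range.mpr S0.prime.pos)] at htot
  · simpa using htot
  · intro j hj hj0
    refine Eq.trans (Finset.sum_congr rfl fun i _ => ?_) (hpow j hj hj0)
    have hc : Commute (a ^ i) b := S0.comm _ (N.pow_mem ha i) _ hb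
    rw [hc.symm.mul_pow, ← pow_mul, S0.comm _ (N.pow_mem hb j) _ (N.pow_mem ha _), mul_smul]

theorem Setup.eq_zero_of_fixed [Finite V] (S0 : Setup N r V) {L : Subgroup H} (hL : IsKer N L V)
    {n : H} (hn : n ∈ N) (hnL : n ∉ L) {v : V} (hv : v ∈ fixV (V := V) L) (h : n • v = v) : v = 0 := by
  refine S0.nofix v fun m hm => ?_
  obtain ⟨i, hi⟩ := S0.cyclic hL hn hnL hm
  have h1 := hv _ hi
  have hp : ∀ k : ℕ, n ^ k • v = v := by
    intro k; induction k with
    | zero => simp
    | succ j ih => rw [pow_succ, mul_smul, h, ih]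
  rwa [mul_smul, hp] at h1

/-- `φ` centralizes `N` modulo `L`. -/
def Cen (N L : Subgroup H) (φ : MulAut H) : Prop := ∀ n ∈ N, n⁻¹ * φ n ∈ L

theorem Cen.mem {L : Subgroup H} {φ : MulAut H} (h : Cen N L φ) (hLN : L ≤ N) {n : H} (hn : n ∈ N) :
    φ n ∈ N := by
  simpa using N.mul_mem hn (hLN (h n hn))

theorem Cen.mul {L : Subgroup H} {φ ψ : MulAut H} (h1 : Cen N L φ) (h2 : Cen N L ψ) (hLN : L ≤ N) :
    Cen N L (φ * ψ) := fun n hn => by
  have e : n⁻¹ * (φ * ψ) n = (n⁻¹ * ψ n) * ((ψ n)⁻¹ * φ (ψ n)) := by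
    rw [MulAut.mul_apply]; group
  rw [e]
  exact L.mul_mem (h2 n hn) (h1 _ (h2.mem hLN hn))

theorem Cen.one (L : Subgroup H) : Cen N L 1 := fun n _ => by simp [L.one_mem]

theorem Cen.pow {L : Subgroup H} {φ : MulAut H} (h : Cen N L φ) (hLN : L ≤ N) (k : ℕ) :
    Cen N L (φ ^ k) := by
  induction k with
  | zero => rw [pow_zero]; exact Cen.one L
  | succ j ih => rw [pow_succ]; exact ih.mul h hLN

theorem Cen.apply_mem {L : Subgroup H} {φ : MulAut H} (h : Cen N L φ) (hLN : L ≤ N) {l : H}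
    (hl : l ∈ L) : φ l ∈ L := by
  simpa using L.mul_mem hl (h l (hLN hl))

/-- Independence of semilinear maps on the vectors fixed by a kernel. -/
theorem Setup.independent [Finite V] (S0 : Setup N r V) {L : Subgroup H} (hL : IsKer N L V) :
    ∀ (fs : List (MulAut H × (V → V))), (∀ p ∈ fs, (∀ n ∈ N, p.1 n ∈ N) ∧
      (∀ n ∈ N, ∀ v, v ∈ fixV (V := V) L → p.2 (n • v) = p.1 n • p.2 v) ∧ ¬ Cen N L p.1) →
    ∀ g : V → V, (∀ v ∈ fixV (V := V) L, g v ∈ fixV (V := V) L) →
      (∀ n ∈ N, ∀ v, v ∈ fixV (V := V) L → g (n • v) = n • g v) →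
      (∀ v ∈ fixV (V := V) L, g v + (fs.map fun p => p.2 v).sum = 0) →
      ∀ v ∈ fixV (V := V) L, g v = 0 := by
  suffices H : ∀ (k : ℕ) (fs : List (MulAut H × (V → V))), fs.length = k → (∀ p ∈ fs, (∀ n ∈ N, p.1 n ∈ N) ∧
      (∀ n ∈ N, ∀ v, v ∈ fixV (V := V) L → p.2 (n • v) = p.1 n • p.2 v) ∧ ¬ Cen N L p.1) →
    ∀ g : V → V, (∀ v ∈ fixV (V := V) L, g v ∈ fixV (V := V) L) →
      (∀ n ∈ N, ∀ v, v ∈ fixV (V := V) L → g (n • v) = n • g v) →
      (∀ v ∈ fixV (V := V) L, g v + (fs.map fun p => p.2 v).sum = 0) →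
      ∀ v ∈ fixV (V := V) L, g v = 0 from fun fs => H _ fs rfl
  intro k
  induction k with
  | zero =>
    intro fs hlen _ g _ _ h v hv
    rw [List.length_eq_zero_iff] at hlen
    subst hlen
    simpa using h v hv
  | succ k ih =>
    intro fs hlen
    obtain ⟨p, ps, rfl⟩ : ∃ p ps, fs = p :: ps := List.exists_cons_of_length_eq_add_one hlen
    intro hfs g hgmem hgN hsum v hv
    obtain ⟨hpN, hp, hpC⟩ := hfs p (by simp)
    unfold Cen at hpC
    push Not at hpC
    obtain ⟨n, hn, hnC⟩ := hpC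
    set m := p.1 n with hm
    have hmN : m ∈ N := hpN n hn
    let ps' : List (MulAut H × (V → V)) := ps.map fun q => (q.1, fun w => q.1 n • q.2 w - m • q.2 w)
    have hmap : ∀ w, (ps'.map fun q => q.2 w).sum =
        (ps.map fun q => q.1 n • q.2 w).sum - m • (ps.map fun q => q.2 w).sum := by
      intro w
      simp only [ps', List.map_map]
      clear hfs hsum ih hlen
      induction ps with
      | nil => simp
      | cons a as iha =>
        simp only [List.map_cons, List.sum_cons, Function.comp_apply, smul_add] at iha ⊢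
        rw [iha]; abel
    have hg' : ∀ w ∈ fixV (V := V) L, n • g w - m • g w = 0 := by
      refine ih ps' (by simpa [ps'] using hlen) ?_ (fun w => n • g w - m • g w) ?_ ?_ ?_
      · intro q' hq'
        obtain ⟨q, hq, rfl⟩ := List.mem_map.mp hq'
        obtain ⟨hqN, hql, hqC⟩ := hfs q (by simp [hq])
        refine ⟨hqN, fun c hc w hw => ?_, hqC⟩
        show q.1 n • q.2 (c • w) - m • q.2 (c • w) = q.1 c • (q.1 n • q.2 w - m • q.2 w)
        rw [hql c hc w hw, smul_sub, ← mul_smul, ← mul_smul, ← mul_smul, ← mul_smul,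
          S0.comm _ (hqN n hn) _ (hqN c hc), S0.comm _ hmN _ (hqN c hc)]
      · exact fun w hw => (fixV (V := V) L).sub_mem (S0.fixV_inv hL.le n hn _ (hgmem w hw))
          (S0.fixV_inv hL.le m hmN _ (hgmem w hw))
      · intro c hc w hw
        rw [hgN c hc w hw, smul_sub, ← mul_smul, ← mul_smul, ← mul_smul, ← mul_smul,
          S0.comm _ hn _ hc, S0.comm _ hmN _ hc]
      · intro w hw
        have a1 := hsum (n • w) (S0.fixV_inv hL.le n hn w hw)
        have a2 := congrArg (m • ·) (hsum w hw)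
        simp only [List.map_cons, List.sum_cons, smul_add, smul_zero, hgN n hn w hw, hp n hn w hw] at a1 a2
        rw [← hm] at a1
        have a3 : (ps.map fun q => q.2 (n • w)) = ps.map fun q => q.1 n • q.2 w :=
          List.map_congr_left fun q hq => (hfs q (by simp [hq])).2.1 n hn w hw
        rw [a3] at a1
        rw [hmap w, ← sub_zero (0 : V)]
        nth_rewrite 1 [← a1]
        rw [← a2]; abel
    have h1 := hg' v hv
    rw [sub_eq_zero] at h1
    refine S0.eq_zero_of_fixed hL (N.mul_mem (N.inv_mem hn) hmN) hnC (hgmem v hv) ?_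
    rw [mul_smul, ← h1, inv_smul_smul]

end Cfsg.Agent.FpfSymThree
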