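import Cfsg.Agent.FpfSymThree.Types
import Cfsg.Agent.FpfFour.Main

/-! A solvable group of order prime to six with a fixed-point-free action of the symmetric group of
degree three has nilpotent derived subgroup. -/

set_option autoImplicit false
open scoped commutatorElement

universe u

namespace Cfsg.Agent.FpfSymThree

variable {H V : Type*} [Group H] [AddCommGroup V] [DistribMulAction H V]
variable {σ τ : MulAut H} {s t : V ≃+ V}

/-- Irreducibility for the group together with the two maps. -/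
def Irr (H : Type*) {V : Type*} [Group H] [AddCommGroup V] [DistribMulAction H V] (s t : V ≃+ V) : Prop :=
  ∀ U : AddSubgroup V, (∀ h : H, ∀ v ∈ U, h • v ∈ U) → (∀ v ∈ U, s v ∈ U) → (∀ v ∈ U, t v ∈ U) →
    U = ⊥ ∨ U = ⊤

theorem Hyp.inv_mem (H0 : Hyp σ τ s t) {K : Subgroup H} (hKσ : ∀ n ∈ K, σ n ∈ K)
    {n : H} (hn : σ n ∈ K) : n ∈ K := by
  rw [← H0.σ3 n]; exact hKσ _ (hKσ _ hn)

/-- The vectors fixed by an invariant normal subgroup form an invariant subgroup. -/
theorem Hyp.fixV_eq_bot [FaithfulSMul H V] (H0 : Hyp σ τ s t) (hirr : Irr H s t) {N : Subgroup H}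
    (hN : N.Normal) (hσ : ∀ n ∈ N, σ n ∈ N) (hτ : ∀ n ∈ N, τ n ∈ N) (hN1 : N ≠ ⊥) :
    FpfSymThree.fixV (V := V) N = ⊥ := by
  refine (hirr (FpfSymThree.fixV N) ?_ ?_ ?_).resolve_right ?_
  · intro h v hv n hn
    have := hv _ (hN.conj_mem n hn h⁻¹)
    rw [inv_inv, mul_smul, mul_smul] at this
    exact inv_smul_eq_iff.mp this
  · intro v hv n hn
    have h1 := congrArg s (hv _ (hσ _ (hσ n hn)))
    rwa [H0.heqs, H0.σ3] at h1
  · intro v hv n hn
    have h1 := congrArg t (hv _ (hτ n hn))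
    rwa [H0.heqt, H0.τ2] at h1
  · intro ht
    exact hN1 <| (Subgroup.eq_bot_iff_forall _).mpr fun n hn =>
      eq_of_smul_eq_smul (α := V) fun v => by
        rw [one_smul]; exact (ht.ge (AddSubgroup.mem_top v)) n hn

/-- A nilpotent invariant normal subgroup has order prime to `p`. -/
theorem Hyp.coprime_of_nilpotent [Finite H] [Finite V] [FaithfulSMul H V] (H0 : Hyp σ τ s t)
    (hirr : Irr H s t) {p : ℕ} [Fact p.Prime] (hV : ∀ v : V, p • v = 0) (Q : Subgroup H) (hQ : Q.Normal)
    (hσ : ∀ n ∈ Q, σ n ∈ Q) (hτ : ∀ n ∈ Q, τ n ∈ Q) (hnil : Group.IsNilpotent Q) :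
    (Nat.card Q).Coprime (Nat.card V) := by
  have hVp : IsPGroup p (Multiplicative V) := fun v =>
    ⟨1, by rw [pow_one]; exact hV v.toAdd⟩
  obtain ⟨j, hj⟩ := hVp.exists_card_eq
  rw [show Nat.card (Multiplicative V) = Nat.card V from Nat.card_congr Multiplicative.toAdd] at hj
  rw [hj]
  refine Nat.Coprime.pow_right _ (((Fact.out : p.Prime).coprime_iff_not_dvd.mpr ?_).symm)
  intro hd
  obtain ⟨P⟩ : Nonempty (Sylow p Q) := inferInstance
  haveI := hQ
  haveI := hnil
  haveI hPn : (P : Subgroup Q).Normal := inferInstance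
  haveI := P.characteristic_of_normal hPn
  set P' : Subgroup H := (P : Subgroup Q).map Q.subtype with hP'
  have hP'n : P'.Normal := ConjAct.normal_of_characteristic_of_normal
  have hinv : ∀ φ : MulAut H, (∀ q ∈ Q, φ q ∈ Q) → ∀ n ∈ P', φ n ∈ P' := by
    intro φ hφ
    let e : Q ≃* Q := MulEquiv.ofBijective
      ({ toFun := fun q => ⟨φ q, hφ q q.2⟩
         map_one' := by ext; simp
         map_mul' := fun a b => by ext; simp } : Q →* Q)
      (Finite.injective_iff_bijective.mp fun a b hab => Subtype.ext (φ.injective (congrArg Subtype.val hab)))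
    rintro _ ⟨q, hq, rfl⟩
    exact ⟨e q, (Subgroup.Characteristic.fixed (H := (P : Subgroup Q)) inferInstance e).symm.le hq, rfl⟩
  have hP1 : P' ≠ ⊥ := by
    intro h
    rw [hP', Subgroup.map_eq_bot_iff_of_injective _ Q.subtype_injective] at h
    exact P.ne_bot_of_dvd_card hd h
  have hfix := H0.fixV_eq_bot hirr hP'n (hinv σ hσ) (hinv τ hτ) hP1
  have hPp : IsPGroup p P' := P.2.map _
  by_cases hV1 : Nat.card V = 1
  · haveI := (Nat.card_eq_one_iff_unique.mp hV1).1
    exact hP1 <| (Subgroup.eq_bot_iff_forall _).mpr fun n _ =>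
      eq_of_smul_eq_smul (α := V) fun v => Subsingleton.elim _ _
  have hd' : p ∣ Nat.card V := by
    rw [hj]; refine dvd_pow_self p fun h0 => hV1 ?_
    rw [hj, h0, pow_zero]
  obtain ⟨w, hw, hw0⟩ := hPp.exists_fixed_point_of_prime_dvd_card_of_fixed_point V hd' (a := 0)
    (fun n => smul_zero (n : H))
  have : w ∈ FpfSymThree.fixV (V := V) P' := fun n hn => hw ⟨n, hn⟩
  rw [hfix, AddSubgroup.mem_bot] at this
  exact hw0 this.symm

/-- An invariant nilpotent normal subgroup of order prime to `|V|` is centralized when `s` has no fixed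
vector. -/
theorem Hyp.fixed_nilpotent [Finite H] [Finite V] [FaithfulSMul H V] (H0 : Hyp σ τ s t)
    (hs0 : ∀ v, s v = v → v = 0) (Q : Subgroup H) (hσ : ∀ n ∈ Q, σ n ∈ Q)
    (hnil : Group.IsNilpotent Q) (hcop : (Nat.card Q).Coprime (Nat.card V)) : ∀ q ∈ Q, σ q = q := by
  have hord : ∀ g ∈ Q, (orderOf g).Coprime (Nat.card V) := fun g hg => by
    refine Nat.Coprime.coprime_dvd_left ?_ hcop
    rw [← Subgroup.orderOf_mk g hg]
    exact orderOf_dvd_natCard _
  obtain ⟨c, hc⟩ := hnil.nilpotent'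
  suffices h : ∀ (i : ℕ) (q : Q), q ∈ Subgroup.upperCentralSeries Q i → σ (q : H) = q by
    intro q hq
    exact h c ⟨q, hq⟩ (hc ▸ Subgroup.mem_top _)
  intro i
  induction i with
  | zero => intro q hq; rw [Subgroup.upperCentralSeries_zero, Subgroup.mem_bot] at hq; subst hq; simp
  | succ i ih =>
    intro q hq
    rw [Subgroup.mem_upperCentralSeries_succ_iff] at hq
    set Zi := Subgroup.upperCentralSeries Q i
    obtain ⟨x, hx⟩ : ∃ x : H, x = q := ⟨_, rfl⟩
    have hxQ : x ∈ Q := hx ▸ q.2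
    obtain ⟨y, hy⟩ : ∃ y, y = x⁻¹ * σ x := ⟨_, rfl⟩
    have hyQ : y ∈ Q := hy ▸ Q.mul_mem (Q.inv_mem hxQ) (hσ _ hxQ)
    have hnorm : y * σ y * σ (σ y) = 1 := by
      rw [hy, map_mul, map_inv, map_mul, map_inv, H0.σ3]; group
    have hycomm : ∀ z : Q, z ∈ Zi → (z : H) * y = y * z := by
      intro z hz
      have hcz : σ (z : H) = z := ih z hz
      have hmem : q * z * q⁻¹ * z⁻¹ ∈ Zi := hq z
      have h1 := ih _ hmem
      simp only [Subgroup.coe_mul, Subgroup.coe_inv, map_mul, map_inv, hcz, ← hx] at h1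
      have h2 : σ x * z * (σ x)⁻¹ = x * z * x⁻¹ := mul_right_cancel h1
      rw [hy]
      calc (z : H) * (x⁻¹ * σ x) = x⁻¹ * (x * z * x⁻¹) * σ x := by group
        _ = x⁻¹ * σ x * z := by rw [← h2]; group
    obtain ⟨u, hu⟩ : ∃ u, u = y * σ y * y⁻¹ * (σ y)⁻¹ := ⟨_, rfl⟩
    let qy : Q := ⟨y, hyQ⟩
    have hyc : ∀ g : Q, qy * g * qy⁻¹ * g⁻¹ ∈ Zi := by
      intro g
      haveI : Zi.Normal := inferInstance
      rw [← QuotientGroup.eq_one_iff]
      have hcen : ∀ a : Q, (∀ g, a * g * a⁻¹ * g⁻¹ ∈ Zi) → ∀ g : Q, Commute (a : Q ⧸ Zi) (g : Q ⧸ Zi) := by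
        intro a ha g
        have := (QuotientGroup.eq_one_iff (a * g * a⁻¹ * g⁻¹)).mpr (ha g)
        simp only [QuotientGroup.mk_mul, QuotientGroup.mk_inv] at this
        exact mul_inv_eq_iff_eq_mul.mp (mul_inv_eq_one.mp this)
      -- `σ q` is central modulo the series as well
      let σq : Q := ⟨σ q, hσ _ q.2⟩
      have hσq : ∀ g, σq * g * σq⁻¹ * g⁻¹ ∈ Zi := by
        intro g
        let g' : Q := ⟨σ (σ g), hσ _ (hσ _ g.2)⟩
        have hm := hq g'
        have h1 := ih _ hm
        have e : σq * g * σq⁻¹ * g⁻¹ = q * g' * q⁻¹ * g'⁻¹ := by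
          apply Subtype.ext
          simp only [commutatorElement_def, Subgroup.coe_mul, Subgroup.coe_inv, σq, g', map_mul, map_inv, H0.σ3] at h1 ⊢
          exact h1
        rw [e]; exact hm
      have hqy : qy = q⁻¹ * σq := Subtype.ext (by simp [qy, σq, hy, hx])
      have c1 : Commute (qy : Q ⧸ Zi) (g : Q ⧸ Zi) := by
        rw [hqy, QuotientGroup.mk_mul, QuotientGroup.mk_inv]
        exact ((hcen q hq g).inv_left).mul_left (hcen σq hσq g)
      simp only [QuotientGroup.mk_mul, QuotientGroup.mk_inv]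
      rw [c1.eq, mul_inv_cancel_right, mul_inv_cancel]
    let qs : Q := ⟨σ y, hσ _ hyQ⟩
    have huZ := hyc qs
    have hcoe : ((qy * qs * qy⁻¹ * qs⁻¹ : Q) : H) = u := by simp [qy, qs, hu]
    have huy : Commute u y := hcoe ▸ (hycomm _ huZ)
    have hσu : σ u = u := hcoe ▸ ih _ huZ
    have hus : Commute u (σ y) := by
      show u * σ y = σ y * u
      rw [← hσu, ← map_mul, ← map_mul, huy.eq]
    have hu1 : u = 1 := H0.commute_of_norm_one hs0 y u hnorm (by rw [hu]; group) huy hus
      (hord u (hcoe ▸ Subtype.coe_prop _))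
    have hc1 : Commute y (σ y) := by
      show y * σ y = σ y * y
      rw [hu, mul_inv_eq_one, mul_inv_eq_iff_eq_mul] at hu1
      exact hu1
    have hc2 : Commute y (σ (σ y)) := by
      rw [eq_inv_of_mul_eq_one_right hnorm]
      exact ((Commute.refl y).mul_right hc1).inv_right
    have hfix := H0.fixed_of_comm hs0 y hc1
      (hord _ (Q.mul_mem (Q.inv_mem (hσ _ (hσ _ hyQ))) hyQ)) hc2
    rw [hfix, hfix, ← pow_two, ← pow_succ] at hnorm
    have hy1 : y = 1 := by
      obtain ⟨m, hm⟩ := exists_pow_eq (g := y) (H0.cop_order y (k := 3) (by norm_num))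
      rw [← hm, hnorm, one_pow]
    rw [hy, inv_mul_eq_one, hx] at hy1
    exact hy1.symm

theorem Hyp.fpf_norm [Finite H] (H0 : Hyp σ τ s t) (hfpf : ∀ g, σ g = g → g = 1) (x : H) :
    x * σ x * σ (σ x) = 1 := by
  have hinj : Function.Injective fun z => z⁻¹ * σ z := by
    intro a b hab
    have hab' : a⁻¹ * σ a = b⁻¹ * σ b := hab
    have : σ (b * a⁻¹) = b * a⁻¹ := by
      rw [map_mul, map_inv, mul_inv_eq_iff_eq_mul, mul_assoc, hab', mul_inv_cancel_left]
    exact (mul_inv_eq_one.mp (hfpf _ this)).symm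
  obtain ⟨z, rfl⟩ := (Finite.injective_iff_surjective.mp hinj) x
  simp only [map_mul, map_inv, H0.σ3]; group

/-- The irreducible configuration is abelian. -/
theorem Ctx.comm [Finite H] [Finite V] [FaithfulSMul H V] {N : Subgroup H} {r : ℕ}
    (C : Ctx σ τ s t N r) (hirr : Irr H s t) {p : ℕ} [Fact p.Prime] (hVp : ∀ v : V, p • v = 0)
    (hV1 : ∃ v : V, v ≠ 0) (hH' : Group.IsNilpotent (commutator H))
    (hN1 : N ≠ ⊥) (hcen : ∀ a b : H, ∀ n ∈ N, ⁅a, b⁆ * n = n * ⁅a, b⁆)
    (hmin : ∀ K : Subgroup H, K ≤ N → K.Normal → (∀ n ∈ K, σ n ∈ K) → (∀ n ∈ K, τ n ∈ K) → K = ⊥ ∨ K = N) :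
    ∀ a b : H, a * b = b * a := by
  have H0 := C.hyp
  have S0 := C.set
  haveI := S0.normal
  by_cases hex : ∃ L, IsKer N L V ∧ Cen N L σ
  · -- `σ` centralizes `N`
    obtain ⟨L, hL, hF⟩ := hex
    have hcom : ∀ a b : H, ∀ n ∈ N, a * b * n * (a * b)⁻¹ = b * a * n * (b * a)⁻¹ := by
      intro a b n hn
      have hm : b * a * n * (b * a)⁻¹ ∈ N := S0.normal.conj_mem n hn _
      calc a * b * n * (a * b)⁻¹ = ⁅a, b⁆ * (b * a * n * (b * a)⁻¹) * ⁅a, b⁆⁻¹ := by
            rw [commutatorElement_def]; group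
        _ = _ := by rw [hcen a b _ hm, mul_inv_cancel_right]
    set K := Subgroup.normalClosure {g : H | ∃ n ∈ N, g = n⁻¹ * σ n} with hK
    have hKL : K ≤ L := by
      rw [hK, Subgroup.normalClosure, Subgroup.closure_le]
      intro g hg
      obtain ⟨a, ⟨n, hn, rfl⟩, hag⟩ := Group.mem_conjugatesOfSet_iff.mp hg
      obtain ⟨x, rfl⟩ := isConj_iff.mp hag
      have := mem_cj.mp (C.cen_cj hcom hL hF x⁻¹ n hn)
      simpa using this
    have hKinv : ∀ φ : MulAut H, (∀ n ∈ N, φ (n⁻¹ * σ n) ∈ K) → ∀ k ∈ K, φ k ∈ K := by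
      intro φ hφ k hk
      have hle : K ≤ K.comap φ.toMonoidHom := by
        refine Subgroup.normalClosure_le_normal ?_
        rintro _ ⟨n, hn, rfl⟩
        exact hφ n hn
      exact hle hk
    have hgen : ∀ n ∈ N, n⁻¹ * σ n ∈ K := fun n hn =>
      Subgroup.subset_normalClosure ⟨n, hn, rfl⟩
    have hKbot : K = ⊥ := by
      refine (hmin K (hKL.trans hL.le) Subgroup.normalClosure_normal ?_ ?_).resolve_right ?_
      · exact hKinv σ fun n hn => by rw [map_mul, map_inv]; exact hgen _ (C.hσN n hn)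
      · refine hKinv τ fun n hn => ?_
        rw [map_mul, map_inv, H0.τσ]
        have := K.mul_mem (hgen _ (C.hτN n hn)) (hgen _ (C.hσN _ (C.hτN n hn)))
        simpa [mul_assoc] using this
      · intro h
        obtain ⟨v, hv, hv0⟩ := hL.exists_ne_zero
        exact hv0 (S0.nofix v fun n hn => hv n (hKL (h.ge hn)))
    have hNfix : ∀ n ∈ N, σ n = n := fun n hn => by
      have := hgen n hn
      rw [hKbot, Subgroup.mem_bot, inv_mul_eq_one] at this
      exact this.symm
    have hs0 : ∀ v, s v = v → v = 0 := fun v hv =>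
      S0.nofix v fun n hn => H0.fix_sfixed (hNfix n hn) hv
    have hinvc : ∀ φ : MulAut H, ∀ x ∈ commutator H, φ x ∈ commutator H := fun φ x hx => by
      have : (commutator H).map φ.toMonoidHom ≤ commutator H := by
        rw [commutator_def, Subgroup.map_commutator]
        exact Subgroup.commutator_mono le_top le_top
      exact this ⟨x, hx, rfl⟩
    have hfix' := H0.fixed_nilpotent hs0 (commutator H) (hinvc σ) hH'
      (H0.coprime_of_nilpotent hirr hVp _ inferInstance (hinvc σ) (hinvc τ) hH')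
    set Q := Subgroup.centralizer (commutator H : Set H) with hQ
    haveI : Q.Normal := Subgroup.normal_centralizer
    have hinvQ : ∀ φ : MulAut H, ∀ x ∈ Q, φ x ∈ Q := fun φ x hx => by
      rw [hQ, Subgroup.mem_centralizer_iff] at hx ⊢
      intro k hk
      have := congrArg φ (hx _ (hinvc φ⁻¹ k hk))
      simpa only [map_mul, MulAut.apply_inv_self] using this
    have hQnil : Group.IsNilpotent Q := by
      haveI : Group.IsNilpotent (Abelianization H) := inferInstance
      refine Subgroup.isNilpotent_of_ker_le_center (Abelianization.of.comp Q.subtype) ?_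
      intro q hq
      rw [MonoidHom.mem_ker, MonoidHom.comp_apply, ← MonoidHom.mem_ker, Abelianization.ker_of] at hq
      rw [Subgroup.mem_center_iff]
      intro g
      exact Subtype.ext ((Subgroup.mem_centralizer_iff.mp g.2) _ hq).symm
    have hQfix := H0.fixed_nilpotent hs0 Q (hinvQ σ) hQnil
      (H0.coprime_of_nilpotent hirr hVp _ inferInstance (hinvQ σ) (hinvQ τ) hQnil)
    have hall : ∀ x, σ x = x := by
      intro x
      have hyQ : x⁻¹ * σ x ∈ Q := by
        rw [hQ, Subgroup.mem_centralizer_iff]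
        intro k hk
        have h1 : σ ⁅x, k⁆ = ⁅x, k⁆ :=
          hfix' _ (Subgroup.commutator_mem_commutator (Subgroup.mem_top x) (Subgroup.mem_top k))
        rw [map_commutatorElement, hfix' k hk, commutatorElement_def, commutatorElement_def] at h1
        have h2 : σ x * k * (σ x)⁻¹ = x * k * x⁻¹ := mul_right_cancel h1
        calc k * (x⁻¹ * σ x) = x⁻¹ * (x * k * x⁻¹) * σ x := by group
          _ = x⁻¹ * σ x * k := by rw [← h2]; group
      have hy := hQfix _ hyQ
      have hnorm : (x⁻¹ * σ x) * σ (x⁻¹ * σ x) * σ (σ (x⁻¹ * σ x)) = 1 := by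
        simp only [map_mul, map_inv, H0.σ3]; group
      rw [hy, hy, ← pow_two, ← pow_succ] at hnorm
      obtain ⟨m, hm⟩ := exists_pow_eq (g := x⁻¹ * σ x)
        (H0.cop_order (x⁻¹ * σ x) (k := 3) (by norm_num))
      rw [hnorm, one_pow] at hm
      exact (inv_mul_eq_one.mp hm.symm).symm
    intro a b
    have hab : σ (a * b) = a * b := by rw [map_mul, hall, hall]
    have h1 := H0.inv_of_fixed hab
    rw [map_mul, H0.inv_of_fixed (hall a), H0.inv_of_fixed (hall b), mul_inv_rev] at h1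
    simpa using (congrArg (·⁻¹) h1).symm
  · push Not at hex
    -- no kernel is centralized
    obtain ⟨v₀, hv₀⟩ := hV1
    obtain ⟨S, -, hS⟩ := FpfFour.exists_minInv (V := V) N ⊤ (fun h => hv₀ (by
      have := h.le (AddSubgroup.mem_top v₀); simpa using this)) (fun _ _ _ _ => trivial)
    have hL₀ : IsKer N (FpfFour.fixK S ⊓ N) V := ⟨S, hS, rfl⟩
    have main : ∀ {τ : MulAut H} {t : V ≃+ V}, Ctx σ τ s t N r → Irr H s t →
        Cen N (FpfFour.fixK S ⊓ N) τ → ∀ a b : H, a * b = b * a := by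
      intro τ t C hirr hT
      have H0 := C.hyp
      have hfpf : ∀ g, σ g = g → g = 1 := fun g hg => C.centralizer_bot hex hg
      set L := FpfFour.fixK S ⊓ N
      let U : AddSubgroup V := AddSubgroup.closure {w | ∃ x : H, w ∈ FpfSymThree.fixV (V := V) (cj x L)}
      have hUt : ∀ w ∈ U, t w = -w := by
        intro w hw
        induction hw using AddSubgroup.closure_induction with
        | mem z hz => obtain ⟨x, hx⟩ := hz; exact C.neg_fixV hex hL₀ hT x hx
        | zero => simp
        | add a b _ _ ha hb => rw [map_add, ha, hb]; abel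
        | neg a _ ha => rw [map_neg, ha]
      have hUh : ∀ h : H, ∀ w ∈ U, h • w ∈ U := by
        intro h w hw
        induction hw using AddSubgroup.closure_induction with
        | mem z hz =>
          obtain ⟨x, hx⟩ := hz
          refine AddSubgroup.subset_closure ⟨h * x, fun l hl => ?_⟩
          rw [mem_cj] at hl
          have := hx (h⁻¹ * l * h) (mem_cj.mpr (by simpa [mul_assoc] using hl))
          simpa [mul_smul, inv_smul_eq_iff] using this
        | zero => rw [smul_zero]; exact U.zero_mem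
        | add a b _ _ ha hb => rw [smul_add]; exact U.add_mem ha hb
        | neg a _ ha => rw [smul_neg]; exact U.neg_mem ha
      let K : Subgroup H := FpfFour.fixK U
      haveI hK : K.Normal := ⟨fun k hk g w hw => by
        rw [mul_smul, mul_smul, hk _ (hUh g⁻¹ w hw), smul_inv_smul]⟩
      let π := QuotientGroup.mk' K
      have hπ : ∀ a b : H, π a = π b ↔ ∀ w ∈ U, a • w = b • w := by
        intro a b
        rw [QuotientGroup.mk'_apply, QuotientGroup.mk'_apply, QuotientGroup.eq]
        refine forall₂_congr fun w _ => ?_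
        rw [mul_smul, inv_smul_eq_iff, eq_comm]
      have hτU : ∀ a, π (τ a) = π a := fun a => (hπ _ _).mpr fun w hw => by
        have h1 := C.hyp.heqt a w
        rw [hUt w hw, hUt _ (hUh a w hw), smul_neg, neg_inj] at h1
        exact h1.symm
      -- fixed points of `τ` map onto the quotient
      have honto : ∀ x : H, ∃ d, τ d = d ∧ π d = π x := by
        intro x
        obtain ⟨k, hk⟩ : ∃ k, k = x⁻¹ * τ x := ⟨_, rfl⟩
        obtain ⟨m, hm⟩ := exists_pow_eq (g := k) (H0.cop_order k (k := 2) (by norm_num))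
        have hkinv : τ k = k⁻¹ := by rw [hk, map_mul, map_inv, H0.τ2, mul_inv_rev, inv_inv]
        have hπk : π k = 1 := by rw [hk, map_mul, map_inv, hτU, inv_mul_cancel]
        refine ⟨x * k ^ m, ?_, by rw [map_mul, map_pow, hπk, one_pow, mul_one]⟩
        have hkk : k * (k ^ m)⁻¹ = k ^ m := by
          rw [mul_inv_eq_iff_eq_mul, ← pow_add]
          conv_lhs => rw [← hm]
          rw [← pow_mul, two_mul]
        rw [map_mul, map_pow, hkinv, show τ x = x * k by rw [hk, mul_inv_cancel_left], inv_pow,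
          mul_assoc, hkk]
      have hb : ∀ d, τ d = d → π d = ((π (σ d)) ^ 2)⁻¹ := by
        intro d hd
        have h1 := congrArg π (H0.fpf_norm hfpf d)
        have h2 : π (σ (σ d)) = π (σ d) := by
          rw [← hτU (σ d), H0.τσ, hd]
        rw [map_mul, map_mul, map_one, h2, mul_assoc, ← pow_two] at h1
        exact eq_inv_of_mul_eq_one_left h1
      let D : Subgroup H :=
        { carrier := {d | τ d = d}
          one_mem' := map_one τ
          mul_mem' := fun {a b} ha hb => show τ (a * b) = a * b by rw [map_mul, ha, hb]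
          inv_mem' := fun {a} ha => show τ a⁻¹ = a⁻¹ by rw [map_inv, ha] }
      let B : Subgroup (H ⧸ K) := D.map (π.comp σ.toMonoidHom)
      have hBtop : ∀ y : H ⧸ K, y ∈ B := by
        intro y
        obtain ⟨x, rfl⟩ := QuotientGroup.mk'_surjective K y
        obtain ⟨d, hd, hdx⟩ := honto x
        rw [← hdx, hb d hd]
        exact B.inv_mem (B.pow_mem ⟨d, hd, rfl⟩ 2)
      have hab : ∀ a b : H ⧸ K, a * b = b * a := by
        refine comm_of_pow_hom (H0.copH.coprime_dvd_left K.card_quotient_dvd_card) fun a b => ?_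
        obtain ⟨c, hc, rfl⟩ := hBtop a
        obtain ⟨d, hd, rfl⟩ := hBtop b
        show ((π (σ c) * π (σ d)) ^ 2)⁻¹ = ((π (σ c)) ^ 2)⁻¹ * ((π (σ d)) ^ 2)⁻¹
        rw [← map_mul, ← map_mul, ← hb (c * d) (D.mul_mem hc hd), ← hb c hc, ← hb d hd, map_mul]
      have hfixU : ∀ a b : H, ∀ w ∈ U, ⁅a, b⁆ • w = w := by
        intro a b w hw
        have h1 : π ⁅a, b⁆ = π 1 := by
          rw [map_one, map_commutatorElement]
          exact commutatorElement_eq_one_iff_commute.mpr (hab _ _)
        simpa using (hπ _ _).mp h1 w hw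
      let W : AddSubgroup V := U ⊔ U.map s.toAddMonoidHom ⊔ (U.map s.toAddMonoidHom).map s.toAddMonoidHom
      have hW : ∀ w, w ∈ W ↔ ∃ a ∈ U, ∃ b ∈ U, ∃ c ∈ U, w = a + s b + s (s c) := by
        intro w
        simp only [W, AddSubgroup.mem_sup]
        constructor
        · rintro ⟨_, ⟨a, ha, _, ⟨b, hb, rfl⟩, rfl⟩, _, ⟨_, ⟨c, hc, rfl⟩, rfl⟩, rfl⟩
          exact ⟨a, ha, b, hb, c, hc, rfl⟩
        · rintro ⟨a, ha, b, hb, c, hc, rfl⟩
          exact ⟨_, ⟨a, ha, _, ⟨b, hb, rfl⟩, rfl⟩, _, ⟨_, ⟨c, hc, rfl⟩, rfl⟩, rfl⟩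
      have hWtop : W = ⊤ := by
        refine (hirr W ?_ ?_ ?_).resolve_left ?_
        · intro h w hw
          obtain ⟨a, ha, b, hb, c, hc, rfl⟩ := (hW w).mp hw
          refine (hW _).mpr ⟨_, hUh h a ha, _, hUh (σ (σ h)) b hb, _, hUh (σ h) c hc, ?_⟩
          simp only [smul_add, H0.heqs, H0.σ3]
        · intro w hw
          obtain ⟨a, ha, b, hb, c, hc, rfl⟩ := (hW w).mp hw
          refine (hW _).mpr ⟨c, hc, a, ha, b, hb, ?_⟩
          simp only [map_add, H0.s3]; abel
        · intro w hw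
          obtain ⟨a, ha, b, hb, c, hc, rfl⟩ := (hW w).mp hw
          refine (hW _).mpr ⟨-a, U.neg_mem ha, -c, U.neg_mem hc, -b, U.neg_mem hb, ?_⟩
          simp only [map_add, map_neg, H0.ts, H0.s3, hUt a ha, hUt b hb, hUt c hc]; abel
        · intro h
          obtain ⟨v, hv, hv0⟩ := hL₀.exists_ne_zero
          apply hv0
          have : v ∈ W := (hW v).mpr ⟨v, AddSubgroup.subset_closure ⟨1, fun l hl => hv l (by
            simpa using mem_cj.mp hl)⟩, 0, U.zero_mem, 0, U.zero_mem, by simp⟩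
          rwa [h, AddSubgroup.mem_bot] at this
      intro a b
      refine commutatorElement_eq_one_iff_commute.mp (eq_of_smul_eq_smul (α := V) fun v => ?_)
      rw [one_smul]
      obtain ⟨x, hx, y, hy, z, hz, rfl⟩ := (hW v).mp (hWtop.ge (AddSubgroup.mem_top v))
      have hσc : ∀ (a b : H) (w : V), w ∈ U → ⁅a, b⁆ • s w = s w := fun a b w hw => by
        have e : σ ⁅σ (σ a), σ (σ b)⁆ = ⁅a, b⁆ := by rw [map_commutatorElement, H0.σ3, H0.σ3]
        rw [← e, ← H0.heqs, hfixU _ _ w hw]
      have hσσc : ⁅a, b⁆ • s (s z) = s (s z) := by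
        have e : σ (σ ⁅σ a, σ b⁆) = ⁅a, b⁆ := by
          rw [map_commutatorElement, map_commutatorElement, H0.σ3, H0.σ3]
        rw [← e, ← H0.heqs, ← H0.heqs, hfixU _ _ z hz]
      rw [smul_add, smul_add, hfixU a b x hx, hσc a b y hy, hσσc]
    have hirr1 : Irr H s (t.trans s) := fun U h1 h2 h3 => hirr U h1 h2 fun v hv => by
      have := h2 _ (h2 _ (h3 v hv))
      simpa [H0.s3] using this
    rcases C.exists_transposition hL₀ (hex _ hL₀) with h | h | h
    · exact main C hirr h
    · exact main C.rot hirr1 h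
    · exact main C.rot.rot (fun U h1 h2 h3 => hirr1 U h1 h2 fun v hv => by
        have := h2 _ (h2 _ (h3 v hv))
        simpa [H0.s3] using this) h

end Cfsg.Agent.FpfSymThree
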