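import Cfsg.Agent.FpfSymThree.Kernel

/-! The two types of kernels and the resulting dichotomy. -/

set_option autoImplicit false
open scoped commutatorElement

namespace Cfsg.Agent.FpfSymThree

open Cfsg.Agent.FpfFour (fixed_of_diff IsMinInv exists_minInv fixK)

variable {H V : Type*} [Group H] [AddCommGroup V] [DistribMulAction H V] {N : Subgroup H} {r : ℕ}
variable {σ τ : MulAut H} {s t : V ≃+ V}

theorem Setup.span [Finite V] (S0 : Setup N r V) (X : AddSubgroup V)
    (hX : ∀ L, IsKer N L V → fixV (V := V) L ≤ X) : X = ⊤ := by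
  suffices h : ∀ (k : ℕ) (U : AddSubgroup V), Nat.card U = k → (∀ n ∈ N, ∀ v ∈ U, n • v ∈ U) → U ≤ X by
    exact top_le_iff.mp (h _ ⊤ rfl fun _ _ _ _ => trivial)
  intro k
  induction k using Nat.strong_induction_on with
  | _ k ih =>
    intro U hk hU
    by_cases hU0 : U = ⊥
    · simp [hU0]
    by_cases hsplit : ∀ n ∈ N, (∀ v ∈ U, n • v = v) ∨ ∀ v ∈ U, n • v = v → v = 0
    · obtain ⟨S, hSU, hS⟩ := exists_minInv N U hU0 hU
      intro v hv
      refine hX _ ⟨S, hS, rfl⟩ ?_
      rintro l ⟨hl, hlN⟩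
      rcases hsplit l hlN with h | h
      · exact h v hv
      · exact absurd ((AddSubgroup.eq_bot_iff_forall S).mpr fun w hw => h w (hSU hw) (hl w hw)) hS.1
    push Not at hsplit
    obtain ⟨n, hn, ⟨u₁, hu₁, hu₁'⟩, u₂, hu₂, hu₂', hu₂0⟩ := hsplit
    let C : AddSubgroup V := U ⊓
      { carrier := {w | n • w = w}
        zero_mem' := smul_zero n
        add_mem' := fun {x y} hx hy => show n • (x + y) = x + y by rw [smul_add, hx, hy]
        neg_mem' := fun {x} hx => show n • (-x) = -x by rw [smul_neg, hx] }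
    let f : V →+ V := DistribSMul.toAddMonoidHom V n - AddMonoidHom.id V
    have hCinv : ∀ m ∈ N, ∀ v ∈ C, m • v ∈ C := fun m hm v hv => ⟨hU m hm v hv.1,
      show n • m • v = m • v by rw [← mul_smul, S0.comm n hn m hm, mul_smul, hv.2]⟩
    have hDinv : ∀ m ∈ N, ∀ v ∈ U.map f, m • v ∈ U.map f := by
      rintro m hm _ ⟨u, hu, rfl⟩
      refine ⟨m • u, hU m hm u hu, ?_⟩
      show n • m • u - m • u = m • (n • u - u)
      rw [smul_sub, ← mul_smul, ← mul_smul, S0.comm n hn m hm]
    have hDU : U.map f ≤ U := by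
      rintro _ ⟨u, hu, rfl⟩
      exact U.sub_mem (hU n hn u hu) hu
    have hsum0 : ∀ u : V, ∑ i ∈ Finset.range r, n ^ i • (n • u - u) = 0 := by
      intro u
      have := sum_pow_fixed (S0.exp n hn) u
      rw [Finset.smul_sum] at this
      simp only [smul_sub, ← mul_smul, ← pow_succ, Finset.sum_sub_distrib]
      simp only [← mul_smul, ← pow_succ'] at this
      rw [this, sub_self]
    have hCne : C ≠ U := fun h => hu₁' (h.ge hu₁).2
    have hDne : U.map f ≠ U := by
      intro h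
      obtain ⟨w, hw, hwu⟩ : u₂ ∈ U.map f := h.ge hu₂
      apply hu₂0
      have h0 := hsum0 w
      rw [show n • w - w = u₂ from hwu] at h0
      have hp : ∀ i : ℕ, n ^ i • u₂ = u₂ := by
        intro i; induction i with
        | zero => simp
        | succ j ihj => rw [pow_succ, mul_smul, hu₂', ihj]
      simp only [hp, Finset.sum_const, Finset.card_range] at h0
      exact S0.nsmul_cancel h0
    have hlt : ∀ A : AddSubgroup V, A ≤ U → A ≠ U → Nat.card A < k := fun A hA hne => by
      rw [← hk]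
      exact Set.ncard_lt_ncard (s := (A : Set V)) (t := (U : Set V))
        (Set.ssubset_iff_subset_ne.mpr ⟨hA, fun h => hne (SetLike.coe_injective h)⟩) (Set.toFinite _)
    have hC := ih _ (hlt C inf_le_left hCne) C rfl hCinv
    have hD := ih _ (hlt _ hDU hDne) _ rfl hDinv
    intro v hv
    have hrv : r • v ∈ X := by
      have e : r • v = (∑ i ∈ Finset.range r, n ^ i • v) -
          ∑ i ∈ Finset.range r, (n ^ i • v - v) := by
        rw [Finset.sum_sub_distrib, Finset.sum_const, Finset.card_range]; abel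
      rw [e]
      refine X.sub_mem (hC ⟨U.sum_mem fun i _ => hU _ (N.pow_mem hn i) v hv,
        sum_pow_fixed (S0.exp n hn) v⟩) (X.sum_mem fun i hi => ?_)
      clear hi
      induction i with
      | zero => simp
      | succ j ihj =>
        have e2 : n ^ (j + 1) • v - v = (n • (n ^ j • v) - n ^ j • v) + (n ^ j • v - v) := by
          rw [pow_succ', mul_smul]; abel
        rw [e2]
        exact X.add_mem (hD ⟨_, hU _ (N.pow_mem hn j) v hv, rfl⟩) ihj
    obtain ⟨i, hi⟩ := exists_nsmul_eq_self_of_coprime (x := v) (n := r)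
      ((S0.cop.coprime_dvd_left (addOrderOf_dvd_natCard v)).symm)
    rw [← hi]
    exact X.nsmul_mem hrv i

/-- The conjugate of a kernel. -/
def cj (x : H) (L : Subgroup H) : Subgroup H := L.map (MulAut.conj x).toMonoidHom

theorem mem_cj {x : H} {L : Subgroup H} {g : H} : g ∈ cj x L ↔ x⁻¹ * g * x ∈ L := by
  unfold cj
  constructor
  · rintro ⟨l, hl, rfl⟩
    simpa [mul_assoc] using hl
  · intro h
    exact ⟨_, h, by simp [mul_assoc]⟩

theorem Setup.isKer_cj (S0 : Setup N r V) (x : H) {L : Subgroup H} (hL : IsKer N L V) :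
    IsKer N (cj x L) V := by
  obtain ⟨S, hS, rfl⟩ := hL
  let m : V →+ V := DistribSMul.toAddMonoidHom V x
  let m' : V →+ V := DistribSMul.toAddMonoidHom V x⁻¹
  refine ⟨S.map m, ⟨?_, ?_, ?_⟩, ?_⟩
  · intro h
    apply hS.1
    rw [AddSubgroup.eq_bot_iff_forall]
    intro v hv
    have : x • v ∈ S.map m := ⟨v, hv, rfl⟩
    rw [h, AddSubgroup.mem_bot] at this
    simpa using congrArg (x⁻¹ • ·) this
  · rintro n hn _ ⟨v, hv, rfl⟩
    refine ⟨(x⁻¹ * n * x) • v, hS.2.1 _ (S0.conj_mem x hn) v hv, ?_⟩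
    show x • ((x⁻¹ * n * x) • v) = n • x • v
    simp [mul_smul]
  · intro T hT hTinv
    have hT' : T.map m' ≤ S := by
      rintro _ ⟨w, hw, rfl⟩
      obtain ⟨v, hv, rfl⟩ := hT hw
      show x⁻¹ • x • v ∈ S
      rwa [inv_smul_smul]
    rcases hS.2.2 (T.map m') hT' (by
      rintro n hn _ ⟨w, hw, rfl⟩
      refine ⟨(x * n * x⁻¹) • w, hTinv _ (S0.normal.conj_mem n hn x) w hw, ?_⟩
      show x⁻¹ • ((x * n * x⁻¹) • w) = n • x⁻¹ • w
      simp [mul_smul]) with h | h
    · left
      rw [AddSubgroup.eq_bot_iff_forall]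
      intro w hw
      have : x⁻¹ • w ∈ T.map m' := ⟨w, hw, rfl⟩
      rw [h, AddSubgroup.mem_bot] at this
      simpa using congrArg (x • ·) this
    · right
      refine le_antisymm hT ?_
      rintro _ ⟨v, hv, rfl⟩
      obtain ⟨w, hw, hwv⟩ := h.ge hv
      rw [← hwv]
      show x • x⁻¹ • w ∈ T
      rwa [smul_inv_smul]
  · ext g
    rw [mem_cj]
    constructor
    · rintro ⟨hg, hgN⟩
      refine ⟨?_, by simpa [mul_assoc] using S0.normal.conj_mem _ hgN x⟩
      rintro _ ⟨v, hv, rfl⟩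
      have := congrArg (x • ·) (hg v hv)
      show g • x • v = x • v
      simpa [mul_smul] using this
    · rintro ⟨hg, hgN⟩
      refine ⟨fun v hv => ?_, S0.conj_mem x hgN⟩
      have := hg (x • v) ⟨v, hv, rfl⟩
      rw [mul_smul, mul_smul, this, inv_smul_smul]

theorem IsKer.exists_ne_zero {L : Subgroup H} (hL : IsKer N L V) :
    ∃ v ∈ fixV (V := V) L, v ≠ 0 := by
  obtain ⟨S, hS, rfl⟩ := hL
  by_contra h
  push Not at h
  exact hS.1 ((AddSubgroup.eq_bot_iff_forall S).mpr fun v hv => h v fun l hl => hl.1 v hv)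

theorem cen_conj_mem {L : Subgroup H} {φ : MulAut H} {x : H} (S0 : Setup N r V)
    (h : Cen N (cj x L) φ) : Cen N L (MulAut.conj (x⁻¹ * φ x) * φ) := by
  intro n hn
  have := mem_cj.mp (h _ (S0.normal.conj_mem n hn x))
  simp only [map_mul, map_inv] at this
  simp only [MulAut.mul_apply, MulAut.conj_apply]
  convert this using 1
  group

theorem cen_cj_of {L : Subgroup H} {φ : MulAut H} {x : H} (S0 : Setup N r V)
    (h : Cen N L (MulAut.conj (x⁻¹ * φ x) * φ)) : Cen N (cj x L) φ := by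
  intro n hn
  rw [mem_cj]
  have := h _ (S0.conj_mem x hn)
  rw [MulAut.mul_apply, MulAut.conj_apply] at this
  simp only [map_mul, map_inv] at this
  convert this using 1
  group

/-- The sums over the group of six automorphisms. -/
structure Ctx (σ τ : MulAut H) (s t : V ≃+ V) (N : Subgroup H) (r : ℕ) : Prop where
  hyp : Hyp σ τ s t
  set : Setup N r V
  hσN : ∀ n ∈ N, σ n ∈ N
  hτN : ∀ n ∈ N, τ n ∈ N

theorem Ctx.rot (C : Ctx σ τ s t N r) : Ctx σ (σ * τ) s (t.trans s) N r := by
  have H0 := C.hyp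
  refine ⟨⟨H0.copH, H0.copV, H0.heqs, fun h v => ?_, H0.σ3, H0.s3, fun h => ?_, fun v => ?_, fun h => ?_,
    fun v => ?_, fun h h1 h2 => ?_, fun v h1 h2 => ?_⟩, C.set, C.hσN, fun n hn => C.hσN _ (C.hτN n hn)⟩
  · show s (t (h • v)) = σ (τ h) • s (t v)
    rw [H0.heqt, H0.heqs]
  · show σ (τ (σ (τ h))) = h
    rw [H0.τσ, H0.σ3, H0.τ2]
  · show s (t (s (t v))) = v
    rw [H0.ts, H0.s3, H0.t2]
  · show σ (τ (σ h)) = σ (σ (σ (τ h)))
    rw [H0.τσ]
  · show s (t (s v)) = s (s (s (t v)))
    rw [H0.ts]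
  · refine H0.fixH h h1 (σ.injective ?_)
    rw [h1]; exact h2
  · refine H0.fixV v h1 (s.injective ?_)
    rw [h1]; exact h2

theorem Ctx.cen_sq (C : Ctx σ τ s t N r) {L : Subgroup H} (hL : L ≤ N) (h : Cen N L (σ * σ)) :
    Cen N L σ := by
  intro n hn
  have := (h.mul h hL) n hn
  simp only [MulAut.mul_apply] at this
  rwa [C.hyp.σ3] at this

/-- An element of the `σ`-fixed part of `N` lies in every kernel that `σ` does not centralize. -/
theorem Ctx.fixed_mem [Finite H] [Finite V] (C : Ctx σ τ s t N r) {L : Subgroup H}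
    (hL : IsKer N L V) (hM : ¬ Cen N L σ) {n : H} (hn : n ∈ N) (hσ : σ n = n) : n ∈ L := by
  by_contra hnL
  have H0 := C.hyp
  have S0 := C.set
  let g : V → V := fun v => n • v - v
  have hgN : ∀ c ∈ N, ∀ v : V, g (c • v) = c • g v := fun c hc v => by
    simp only [g]
    rw [smul_sub, ← mul_smul, ← mul_smul, S0.comm n hn c hc]
  have key := S0.independent hL [(σ, fun v => s (g v)), (σ * σ, fun v => s (s (g v)))] (by
    intro p hp
    simp only [List.mem_cons, List.not_mem_nil, or_false] at hp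
    rcases hp with rfl | rfl
    · exact ⟨C.hσN, fun c hc v _ => by simp only [hgN c hc, H0.heqs], hM⟩
    · exact ⟨fun c hc => C.hσN _ (C.hσN c hc), fun c hc v _ => by
        simp only [hgN c hc, H0.heqs, MulAut.mul_apply], fun h => hM (C.cen_sq hL.le h)⟩)
    g (fun v hv => (fixV (V := V) L).sub_mem (S0.fixV_inv hL.le n hn v hv) hv)
    (fun c hc v _ => hgN c hc v) (fun v _ => by
      have h1 := H0.fix_sfixed (a := n) hσ (v := v + s v + s (s v))
        (by rw [map_add, map_add, H0.s3]; abel)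
      rw [smul_add, smul_add] at h1
      have e1 : s (n • v) = n • s v := by rw [H0.heqs, hσ]
      have e2 : s (s (n • v)) = n • s (s v) := by rw [e1, H0.heqs, hσ]
      simp only [g, List.map_cons, List.map_nil, List.sum_cons, List.sum_nil, add_zero, map_sub]
      rw [e2, e1]
      rw [← sub_eq_zero] at h1
      rw [← h1]; abel)
  obtain ⟨v, hv, hv0⟩ := hL.exists_ne_zero
  exact hv0 (S0.eq_zero_of_fixed hL hn hnL hv (sub_eq_zero.mp (key v hv)))

theorem Ctx.fixed_part_bot [Finite H] [Finite V] [FaithfulSMul H V] (C : Ctx σ τ s t N r)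
    (hM : ∀ L, IsKer N L V → ¬ Cen N L σ) {n : H} (hn : n ∈ N) (hσ : σ n = n) : n = 1 := by
  have hX := C.set.span (X :=
    { carrier := {w : V | n • w = w}
      zero_mem' := smul_zero n
      add_mem' := fun {x y} hx hy => show n • (x + y) = x + y by rw [smul_add, hx, hy]
      neg_mem' := fun {x} hx => show n • (-x) = -x by rw [smul_neg, hx] })
    (fun L hL v hv => hv n (C.fixed_mem hL (hM L hL) hn hσ))
  exact eq_of_smul_eq_smul (α := V) fun v => by
    rw [one_smul]; exact hX.ge (AddSubgroup.mem_top v)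

theorem Ctx.centralizer_bot [Finite H] [Finite V] [FaithfulSMul H V] (C : Ctx σ τ s t N r)
    (hM : ∀ L, IsKer N L V → ¬ Cen N L σ) {a : H} (ha : σ a = a) : a = 1 := by
  have H0 := C.hyp
  have S0 := C.set
  suffices hfix : ∀ L, IsKer N L V → ∀ v ∈ fixV (V := V) L, a • v = v by
    have hX := S0.span (X :=
      { carrier := {w : V | a • w = w}
        zero_mem' := smul_zero a
        add_mem' := fun {x y} hx hy => show a • (x + y) = x + y by rw [smul_add, hx, hy]
        neg_mem' := fun {x} hx => show a • (-x) = -x by rw [smul_neg, hx] }) hfix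
    exact eq_of_smul_eq_smul (α := V) fun v => by
      rw [one_smul]; exact hX.ge (AddSubgroup.mem_top v)
  intro L hL
  set c : MulAut H := MulAut.conj a with hc
  have hcN : ∀ n ∈ N, c n ∈ N := fun n hn => S0.normal.conj_mem n hn a
  have hcs : ∀ n, c n = a * n * a⁻¹ := fun n => MulAut.conj_apply a n
  have hsa : ∀ v, s (a • v) = a • s v := fun v => by rw [H0.heqs, ha]
  have hcv : ∀ n, ∀ v : V, a • n • v = c n • a • v := fun n v => by
    rw [hcs, ← mul_smul, ← mul_smul, inv_mul_cancel_right]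
  have hw : ∀ v, a • (v + s v + s (s v)) = v + s v + s (s v) := fun v =>
    H0.fix_sfixed ha (by rw [map_add, map_add, H0.s3]; abel)
  by_cases hC : Cen N L c
  · have hamem : ∀ v ∈ fixV (V := V) L, a • v ∈ fixV (V := V) L := by
      intro v hv l hl
      obtain ⟨k, hk⟩ : ∃ k : ℕ, a ^ k = a⁻¹ := ⟨orderOf a - 1, eq_inv_of_mul_eq_one_left (by
        rw [← pow_succ, Nat.sub_add_cancel (orderOf_pos a), pow_orderOf_eq_one])⟩
      have hmem : (c ^ k) l ∈ L := (hC.pow hL.le k).apply_mem hL.le hl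
      rw [hc, ← map_pow, hk, MulAut.conj_apply, inv_inv] at hmem
      have := congrArg (a • ·) (hv _ hmem)
      simpa [mul_smul] using this
    have hgN : ∀ n ∈ N, ∀ v ∈ fixV (V := V) L, a • n • v - n • v = n • (a • v - v) := by
      intro n hn v hv
      have := hamem v hv _ (hC n hn)
      rw [hcv, smul_sub]
      congr 1
      rwa [mul_smul, inv_smul_eq_iff] at this
    intro v hv
    refine sub_eq_zero.mp (S0.independent hL
      [(σ, fun v => s (a • v - v)), (σ * σ, fun v => s (s (a • v - v)))] ?_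
      (fun v => a • v - v) (fun w hw' => (fixV (V := V) L).sub_mem (hamem w hw') hw')
      hgN (fun w _ => ?_) v hv)
    · intro p hp
      simp only [List.mem_cons, List.not_mem_nil, or_false] at hp
      rcases hp with rfl | rfl
      · exact ⟨C.hσN, fun n hn w hw' => by simp only [hgN n hn w hw', H0.heqs], hM L hL⟩
      · exact ⟨fun n hn => C.hσN _ (C.hσN n hn), fun n hn w hw' => by
          simp only [hgN n hn w hw', H0.heqs, MulAut.mul_apply], fun h => hM L hL (C.cen_sq hL.le h)⟩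
    · have h1 := hw w
      rw [smul_add, smul_add, ← sub_eq_zero] at h1
      simp only [List.map_cons, List.map_nil, List.sum_cons, List.sum_nil, add_zero, map_sub, hsa]
      rw [← h1]; abel
  · exfalso
    have hcom : Commute σ c := by
      refine MulEquiv.ext fun n => ?_
      simp only [MulAut.mul_apply, hcs, map_mul, map_inv, ha]
    have hcub : ∀ j, (σ ^ j) ^ 3 = 1 := fun j => by
      rw [← pow_mul, mul_comm, pow_mul, show σ ^ 3 = 1 from MulEquiv.ext fun n => by
        simpa [pow_three] using H0.σ3 n, one_pow]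
    have hnot : ∀ j : ℕ, ¬ Cen N L (σ ^ j * c) := by
      intro j h
      apply hC
      have h3 := h.pow hL.le 3
      rw [(hcom.pow_left j).mul_pow, hcub, one_mul] at h3
      obtain ⟨m, hm⟩ := exists_pow_eq (g := a) (H0.cop_order a (k := 3) (by norm_num))
      have := h3.pow hL.le m
      rwa [hc, ← map_pow, ← map_pow, hm] at this
    obtain ⟨v, hv, hv0⟩ := hL.exists_ne_zero
    apply hv0
    refine neg_eq_zero.mp (S0.independent hL
      [(σ, fun v => -s v), (σ * σ, fun v => -s (s v)), (c, fun v => a • v),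
       (σ * c, fun v => s (a • v)), (σ * σ * c, fun v => s (s (a • v)))] ?_
      (fun v => -v) (fun w hw' => (fixV (V := V) L).neg_mem hw') (fun n _ w _ => (smul_neg n w).symm)
      (fun w _ => ?_) v hv)
    · intro p hp
      simp only [List.mem_cons, List.not_mem_nil, or_false] at hp
      rcases hp with rfl | rfl | rfl | rfl | rfl
      · exact ⟨C.hσN, fun n _ w _ => by simp only [H0.heqs, smul_neg], hM L hL⟩
      · exact ⟨fun n hn => C.hσN _ (C.hσN n hn), fun n _ w _ => by
          simp only [H0.heqs, smul_neg, MulAut.mul_apply], fun h => hM L hL (C.cen_sq hL.le h)⟩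
      · exact ⟨hcN, fun n _ w _ => hcv n w, hC⟩
      · refine ⟨fun n hn => C.hσN _ (hcN n hn), fun n _ w _ => ?_, by simpa using hnot 1⟩
        simp only [MulAut.mul_apply, hcv, H0.heqs]
      · refine ⟨fun n hn => C.hσN _ (C.hσN _ (hcN n hn)), fun n _ w _ => ?_,
          by simpa [pow_two] using hnot 2⟩
        simp only [MulAut.mul_apply, hcv, H0.heqs]
    · have h1 := hw w
      rw [smul_add, smul_add, ← sub_eq_zero] at h1
      simp only [List.map_cons, List.map_nil, List.sum_cons, List.sum_nil, add_zero, hsa]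
      rw [← h1]; abel

theorem Ctx.exists_transposition [Finite H] [Finite V] (C : Ctx σ τ s t N r) {L : Subgroup H}
    (hL : IsKer N L V) (hM : ¬ Cen N L σ) :
    Cen N L τ ∨ Cen N L (σ * τ) ∨ Cen N L (σ * (σ * τ)) := by
  by_contra hcon
  push Not at hcon
  obtain ⟨hc0, hc1, hc2⟩ := hcon
  have H0 := C.hyp
  obtain ⟨v, hv, hv0⟩ := hL.exists_ne_zero
  apply hv0
  refine C.set.independent hL
    [(σ, fun v => s v), (σ * σ, fun v => s (s v)), (τ, fun v => t v), (σ * τ, fun v => s (t v)),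
      (σ * (σ * τ), fun v => s (s (t v)))] ?_ id (fun w h => h) (fun _ _ _ _ => rfl) (fun w _ => ?_) v hv
  · intro p hp
    simp only [List.mem_cons, List.not_mem_nil, or_false] at hp
    rcases hp with rfl | rfl | rfl | rfl | rfl
    · exact ⟨C.hσN, fun n _ w _ => H0.heqs n w, hM⟩
    · exact ⟨fun n hn => C.hσN _ (C.hσN n hn), fun n _ w _ => by
        simp only [H0.heqs, MulAut.mul_apply], fun h => hM (C.cen_sq hL.le h)⟩
    · exact ⟨C.hτN, fun n _ w _ => H0.heqt n w, hc0⟩
    · exact ⟨fun n hn => C.hσN _ (C.hτN n hn), fun n _ w _ => by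
        simp only [H0.heqs, H0.heqt, MulAut.mul_apply], hc1⟩
    · exact ⟨fun n hn => C.hσN _ (C.hσN _ (C.hτN n hn)), fun n _ w _ => by
        simp only [H0.heqs, H0.heqt, MulAut.mul_apply], hc2⟩
  · simp only [List.map_cons, List.map_nil, List.sum_cons, List.sum_nil, id]
    refine H0.fixV _ ?_ ?_
    · simp only [map_add, map_zero, H0.s3]; abel
    · simp only [map_add, map_zero, H0.ts, H0.t2, H0.s3]; abel

/-- Without centralized kernels, a transposition centralizing one kernel centralizes its conjugates and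
negates their fixed vectors. -/
theorem Ctx.neg_fixV [Finite H] [Finite V] [FaithfulSMul H V] (C : Ctx σ τ s t N r)
    (hM : ∀ L, IsKer N L V → ¬ Cen N L σ) {L : Subgroup H} (hL : IsKer N L V) (hT : Cen N L τ)
    (x : H) {v : V} (hv : v ∈ fixV (V := V) (cj x L)) : t v = -v := by
  have H0 := C.hyp
  have S0 := C.set
  have hLx := S0.isKer_cj x hL
  have hfpf : ∀ g, σ g = g → g = 1 := fun g hg => C.centralizer_bot hM hg
  have hττ : τ * τ = 1 := MulEquiv.ext fun n => H0.τ2 n
  have hnot : ∀ ρ : MulAut H, (∀ g, ρ g = g → g = 1) → (∀ L', IsKer N L' V → ¬ Cen N L' ρ) →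
      ¬ Cen N (cj x L) (ρ * τ) := by
    intro ρ hρ hρM h
    have h1 := (cen_conj_mem S0 h).mul hT hL.le
    rw [mul_assoc, mul_assoc, hττ, mul_one] at h1
    have hinj : Function.Injective fun z => z⁻¹ * ρ z := by
      intro a b hab
      have hab' : a⁻¹ * ρ a = b⁻¹ * ρ b := hab
      have : ρ (b * a⁻¹) = b * a⁻¹ := by
        rw [map_mul, map_inv, mul_inv_eq_iff_eq_mul, mul_assoc, hab', mul_inv_cancel_left]
      exact (mul_inv_eq_one.mp (hρ _ this)).symm
    obtain ⟨z, hz⟩ := (Finite.injective_iff_surjective.mp hinj) (x⁻¹ * (ρ * τ) x)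
    rw [← hz] at h1
    exact hρM _ (S0.isKer_cj z hL) (cen_cj_of S0 h1)
  have hTx : Cen N (cj x L) τ := by
    rcases C.exists_transposition hLx (hM _ hLx) with h | h | h
    · exact h
    · exact absurd h (hnot σ hfpf hM)
    · rw [← mul_assoc] at h
      refine absurd h (hnot (σ * σ) (fun g hg => hfpf g ?_) fun L' hL' h' => hM L' hL' (C.cen_sq hL'.le h'))
      have := congrArg σ hg
      rw [MulAut.mul_apply, H0.σ3] at this
      exact this.symm
  have htmem : ∀ w ∈ fixV (V := V) (cj x L), t w ∈ fixV (V := V) (cj x L) := by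
    intro w hw l hl
    have := congrArg t (hw _ (hTx.apply_mem hLx.le hl))
    rwa [H0.heqt, H0.τ2] at this
  have hgN : ∀ n ∈ N, ∀ w ∈ fixV (V := V) (cj x L), n • w + t (n • w) = n • (w + t w) := by
    intro n hn w hw
    have := htmem w hw _ (hTx n hn)
    rw [mul_smul, inv_smul_eq_iff] at this
    rw [H0.heqt, this, smul_add]
  have key := S0.independent hLx [(σ, fun w => s (w + t w)), (σ * σ, fun w => s (s (w + t w)))] (by
    intro p hp
    simp only [List.mem_cons, List.not_mem_nil, or_false] at hp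
    rcases hp with rfl | rfl
    · exact ⟨C.hσN, fun n hn w hw => by simp only [hgN n hn w hw, H0.heqs], hM _ hLx⟩
    · exact ⟨fun n hn => C.hσN _ (C.hσN n hn), fun n hn w hw => by
        simp only [hgN n hn w hw, H0.heqs, MulAut.mul_apply], fun h => hM _ hLx (C.cen_sq hLx.le h)⟩)
    (fun w => w + t w) (fun w hw => (fixV (V := V) _).add_mem hw (htmem w hw)) hgN (fun w _ => by
      simp only [List.map_cons, List.map_nil, List.sum_cons, List.sum_nil]
      refine H0.fixV _ ?_ ?_
      · simp only [map_add, map_zero, H0.s3]; abel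
      · simp only [map_add, map_zero, H0.ts, H0.t2, H0.s3]; abel) v hv
  exact eq_neg_of_add_eq_zero_right key

/-- Centralized kernels are closed under conjugation. -/
theorem Ctx.cen_cj [Finite H] [Finite V] (C : Ctx σ τ s t N r)
    (hcom : ∀ a b : H, ∀ n ∈ N, a * b * n * (a * b)⁻¹ = b * a * n * (b * a)⁻¹) {L : Subgroup H}
    (hL : IsKer N L V) (hF : Cen N L σ) (x : H) : Cen N (cj x L) σ := by
  have H0 := C.hyp
  have S0 := C.set
  by_contra hM
  -- the key step, for `σ` and `σ²`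
  have key : ∀ ρ : MulAut H, (∀ g, ρ (ρ (ρ g)) = g) → Cen N L ρ → ¬ Cen N (cj x L) ρ →
      ¬ Cen N (cj (x⁻¹ * ρ x)⁻¹ L) ρ := by
    intro ρ hρ3 hρL hρx h
    apply hρx
    obtain ⟨g, hg⟩ : ∃ g, g = x⁻¹ * ρ x := ⟨_, rfl⟩
    rw [← hg] at h
    have hρρ : ρ * (ρ * ρ) = 1 := MulEquiv.ext fun n => hρ3 n
    have hk1 : Cen N L (MulAut.conj (g * (ρ g)⁻¹)) := by
      have := (cen_conj_mem S0 h).mul (hρL.mul hρL hL.le) hL.le
      rwa [mul_assoc, hρρ, mul_one, inv_inv, map_inv] at this
    have hk2 : Cen N L (MulAut.conj (g * (ρ (ρ g))⁻¹)) := by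
      have hh : Cen N (cj g⁻¹ L) (ρ * ρ) := h.mul h (S0.isKer_cj _ hL).le
      have := (cen_conj_mem S0 hh).mul hρL hL.le
      rw [mul_assoc, mul_assoc, hρρ, mul_one, inv_inv, map_inv, MulAut.mul_apply] at this
      exact this
    have hnorm : g * ρ g * ρ (ρ g) = 1 := by
      rw [hg, map_mul, map_inv, map_mul, map_inv, hρ3]; group
    have hg3 : Cen N L (MulAut.conj (g ^ 3)) := by
      intro n hn
      have := (hk1.mul hk2 hL.le) n hn
      rw [← map_mul] at this
      rw [MulAut.conj_apply] at this ⊢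
      convert this using 2
      -- only the action on `N` matters
      have e1 : ρ (ρ g) = (g * ρ g)⁻¹ := eq_inv_of_mul_eq_one_right hnorm
      rw [e1, inv_inv]
      have hn' : ρ g * n * (ρ g)⁻¹ ∈ N := S0.normal.conj_mem n hn _
      calc g ^ 3 * n * (g ^ 3)⁻¹ = g * (g * g * n * (g * g)⁻¹) * g⁻¹ := by
            rw [pow_three]; group
        _ = _ := ?_
      have e2 := hcom (g * g) (ρ g) n hn
      calc g * (g * g * n * (g * g)⁻¹) * g⁻¹
          = g * (ρ g)⁻¹ * (ρ g * (g * g) * n * (ρ g * (g * g))⁻¹) * (g * (ρ g)⁻¹)⁻¹ := by group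
        _ = g * (ρ g)⁻¹ * (g * g * ρ g * n * (g * g * ρ g)⁻¹) * (g * (ρ g)⁻¹)⁻¹ := by rw [← e2]
        _ = _ := by group
    have hgC : Cen N L (MulAut.conj g) := by
      obtain ⟨m, hm⟩ := exists_pow_eq (g := g) (H0.cop_order g (k := 3) (by norm_num))
      have := hg3.pow hL.le m
      rwa [← map_pow, hm] at this
    refine cen_cj_of S0 ?_
    rw [← hg]
    exact hgC.mul hρL hL.le
  have hFF : Cen N L (σ * σ) := hF.mul hF hL.le
  have hMM : ¬ Cen N (cj x L) (σ * σ) := fun h => hM (C.cen_sq (S0.isKer_cj x hL).le h)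
  have k1 := key σ H0.σ3 hF hM
  have k2 := key (σ * σ) (fun g => by simp only [MulAut.mul_apply, H0.σ3]) hFF hMM
  have k2' : ¬ Cen N (cj (x⁻¹ * (σ * σ) x)⁻¹ L) σ := fun h => k2 (h.mul h (S0.isKer_cj _ hL).le)
  have hall : ∀ n ∈ N, σ n = n → n ∈ L := by
    intro n hn hσn
    obtain ⟨a, ha⟩ : ∃ a, a = x * n * x⁻¹ := ⟨_, rfl⟩
    have haN : a ∈ N := ha ▸ S0.normal.conj_mem n hn x
    have hSfix : σ (a * σ a * σ (σ a)) = a * σ a * σ (σ a) := by
      rw [map_mul, map_mul, H0.σ3, S0.comm _ (N.mul_mem (C.hσN _ haN) (C.hσN _ (C.hσN _ haN))) _ haN,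
        mul_assoc]
    have h1 := mem_cj.mp (C.fixed_mem (S0.isKer_cj x hL) hM
      (N.mul_mem (N.mul_mem haN (C.hσN _ haN)) (C.hσN _ (C.hσN _ haN))) hSfix)
    have hg' := mem_cj.mp (C.fixed_mem (S0.isKer_cj _ hL) k1 hn hσn)
    have hh' := mem_cj.mp (C.fixed_mem (S0.isKer_cj _ hL) k2' hn hσn)
    rw [inv_inv, MulAut.mul_apply] at hh'
    rw [inv_inv] at hg'
    have e : x⁻¹ * (a * σ a * σ (σ a)) * x = n * ((x⁻¹ * σ x) * n * (x⁻¹ * σ x)⁻¹) *
        ((x⁻¹ * σ (σ x)) * n * (x⁻¹ * σ (σ x))⁻¹) := by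
      rw [ha]; simp only [map_mul, map_inv, hσn]; group
    rw [e] at h1
    exact (Subgroup.mul_mem_cancel_right L hg').mp ((Subgroup.mul_mem_cancel_right L hh').mp h1)
  obtain ⟨v, hv, hv0⟩ := hL.exists_ne_zero
  refine hv0 (S0.nofix v fun n hn => ?_)
  suffices hn3 : n ^ 3 ∈ L by
    obtain ⟨m, hm⟩ := exists_pow_eq (g := n) (H0.cop_order n (k := 3) (by norm_num))
    exact hv n (hm ▸ L.pow_mem hn3 m)
  have h1 := hall (n * σ n * σ (σ n)) (N.mul_mem (N.mul_mem hn (C.hσN _ hn)) (C.hσN _ (C.hσN _ hn))) (by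
    rw [map_mul, map_mul, H0.σ3, S0.comm _ (N.mul_mem (C.hσN _ hn) (C.hσN _ (C.hσN _ hn))) _ hn, mul_assoc])
  have h2 := hFF n hn
  have e : n * σ n * σ (σ n) = n ^ 3 * ((n⁻¹ * σ n) * (n⁻¹ * σ (σ n))) := by
    have c1 : n⁻¹ * σ n = σ n * n⁻¹ := S0.comm _ (N.inv_mem hn) _ (C.hσN _ hn)
    calc n * σ n * σ (σ n) = n * n * (n⁻¹ * σ n) * (n * (n⁻¹ * σ (σ n))) := by group
      _ = n * n * (σ n * n⁻¹) * n * (n⁻¹ * σ (σ n)) := by rw [c1]; group
      _ = n * n * σ n * (n⁻¹ * σ (σ n)) := by group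
      _ = _ := by rw [pow_three]; group
  rw [e] at h1
  exact (Subgroup.mul_mem_cancel_right L (L.mul_mem (hF n hn) h2)).mp h1

end Cfsg.Agent.FpfSymThree
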